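import Mathlib
import Cfsg.Agent.Base
import Cfsg.Agent.Lib.ClassMax.Basic

/-!
Rational structures: a basis `b` of `V` and a subfield `F₀` give the rational vectors (coordinates
in `F₀`).  Projections `proj f` along `F₀`-linear maps `f : F → F₀`, the normaliser `ratNorm` of the
rational structure, the bridge to `Geo.subfieldSubgroup`, and an orbit-counting lemma for two
transvections of a plane.
-/

set_option autoImplicit false
set_option linter.unusedSectionVars false

namespace H11.Sub

open Module Cfsg H97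

section Field

variable {F : Type*} [Field F] (F₀ : Subfield F)

theorem exists_proj_one : ∃ f : F →ₗ[F₀] F₀, f 1 = 1 :=
  H97.exists_dual_of_ne_zero (F := F₀) (V := F) one_ne_zero 1

variable {F₀}

theorem notMem_span_one {c : F} (hc : c ∉ F₀) : c ∉ F₀ ∙ (1 : F) := by
  intro h
  obtain ⟨a, rfl⟩ := Submodule.mem_span_singleton.1 h
  apply hc
  change (a : F) * 1 ∈ F₀
  simp

theorem exists_proj_sep {c : F} (hc : c ∉ F₀) : ∃ f : F →ₗ[F₀] F₀, f 1 = 0 ∧ f c = 1 :=
  H97.exists_dual_of_notMem_span (F := F₀) (V := F) (notMem_span_one hc) 1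

theorem proj_mul_of_mem (f : F →ₗ[F₀] F₀) {a : F} (ha : a ∈ F₀) (c : F) :
    (f (a * c) : F) = a * f c := by
  have : a * c = (⟨a, ha⟩ : F₀) • c := rfl
  rw [this, map_smul]; rfl

theorem proj_mul_of_mem' (f : F →ₗ[F₀] F₀) {a : F} (ha : a ∈ F₀) (c : F) :
    (f (c * a) : F) = f c * a := by
  rw [mul_comm, proj_mul_of_mem f ha, mul_comm]

theorem proj_of_mem (f : F →ₗ[F₀] F₀) {a : F} (ha : a ∈ F₀) : (f a : F) = a * f 1 := by
  rw [← proj_mul_of_mem f ha, mul_one]

theorem mem_of_proj {c : F} (h : ∀ f : F →ₗ[F₀] F₀, f 1 = 0 → f c = 0) : c ∈ F₀ := by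
  by_contra hc
  obtain ⟨f, h1, h2⟩ := exists_proj_sep hc
  rw [h f h1] at h2
  exact zero_ne_one h2

/-- A subring of a finite field strictly above a subfield of prime index is everything. -/
theorem subring_eq_top [Fintype F] {r : ℕ} (hr : r.Prime) (hcard : Fintype.card F = Nat.card F₀ ^ r)
    (S : Subring F) (h0 : ∀ a ∈ F₀, a ∈ S) {s : F} (hs : s ∈ S) (hs' : s ∉ F₀) : ∀ c, c ∈ S := by
  classical
  let A : Subalgebra F₀ F :=
    { S with algebraMap_mem' := fun a => h0 a a.2 }
  let K : IntermediateField F₀ F := A.toIntermediateField (fun x hx => by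
    by_cases h : x = 0
    · simp [h]
    have h1 : x⁻¹ = x ^ (Fintype.card F - 2) := by
      have h2 := FiniteField.pow_card_sub_one_eq_one x h
      have h3 : 1 < Fintype.card F := Fintype.one_lt_card
      have h4 : Fintype.card F - 1 = (Fintype.card F - 2) + 1 := by omega
      rw [h4, pow_succ] at h2
      exact (eq_inv_of_mul_eq_one_left h2).symm
    rw [h1]; exact A.pow_mem hx _)
  have hfin : finrank F₀ F = r := by
    have h1 : Nat.card F = Nat.card F₀ ^ finrank F₀ F := Module.natCard_eq_pow_finrank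
    rw [Nat.card_eq_fintype_card, hcard] at h1
    have h2 : 1 < Nat.card F₀ := Finite.one_lt_card
    exact (Nat.pow_right_injective h2 h1).symm
  have hsimple : IsSimpleOrder (IntermediateField F₀ F) :=
    IntermediateField.isSimpleOrder_of_finrank_prime F₀ F (hfin ▸ hr)
  rcases hsimple.eq_bot_or_eq_top K with h | h
  · exfalso
    have : s ∈ K := hs
    rw [h, IntermediateField.mem_bot] at this
    obtain ⟨a, rfl⟩ := this
    exact hs' a.2
  · intro c
    have : c ∈ K := h ▸ IntermediateField.mem_top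
    exact this

theorem exists_notMem_of_card [Fintype F] {r : ℕ} (hr : r.Prime)
    (hcard : Fintype.card F = Nat.card F₀ ^ r) : ∃ s : F, s ∉ F₀ := by
  by_contra h
  push Not at h
  have h1 : Nat.card F₀ = Fintype.card F := by
    rw [← Nat.card_eq_fintype_card]
    exact Nat.card_congr (Equiv.subtypeUnivEquiv h)
  rw [h1] at hcard
  have h2 : 1 < Fintype.card F := Fintype.one_lt_card
  have h3 : Fintype.card F ^ 1 = Fintype.card F ^ r := by simpa using hcard
  exact hr.one_lt.ne (Nat.pow_right_injective h2 h3)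

end Field

section Rat

variable {F V : Type*} [Field F] [AddCommGroup V] [Module F V] {ι : Type*} [Fintype ι]
  (b : Basis ι F V) (F₀ : Subfield F)

/-- `x` has all its coordinates in `F₀`. -/
def Rat (x : V) : Prop := ∀ i, b.repr x i ∈ F₀

/-- `x` is a multiple of a rational vector. -/
def RatPt (x : V) : Prop := ∃ c : F, ∃ v, Rat b F₀ v ∧ x = c • v

/-- A functional taking rational values on rational vectors. -/
def RatD (φ : Dual F V) : Prop := ∀ x, Rat b F₀ x → φ x ∈ F₀

variable {F₀}

/-- Apply `f` to each coordinate. -/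
noncomputable def proj (f : F →ₗ[F₀] F₀) (x : V) : V := ∑ i, (f (b.repr x i) : F) • b i

/-- Apply `f` to each coordinate of a functional. -/
noncomputable def projD (f : F →ₗ[F₀] F₀) (φ : Dual F V) : Dual F V :=
  b.constr F fun i => (f (φ (b i)) : F)

variable {b}

theorem repr_proj (f : F →ₗ[F₀] F₀) (x : V) (i : ι) : b.repr (proj b f x) i = f (b.repr x i) := by
  classical
  simp [proj, Finsupp.single_apply]

theorem rat_proj (f : F →ₗ[F₀] F₀) (x : V) : Rat b F₀ (proj b f x) := fun i => by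
  rw [repr_proj]; exact (f _).2

theorem rat_zero : Rat b F₀ (0 : V) := fun i => by simp

theorem Rat.add {x y : V} (hx : Rat b F₀ x) (hy : Rat b F₀ y) : Rat b F₀ (x + y) := fun i => by
  simpa using F₀.add_mem (hx i) (hy i)

theorem Rat.neg {x : V} (hx : Rat b F₀ x) : Rat b F₀ (-x) := fun i => by
  simpa using hx i

theorem Rat.sub {x y : V} (hx : Rat b F₀ x) (hy : Rat b F₀ y) : Rat b F₀ (x - y) := fun i => by
  simpa using F₀.sub_mem (hx i) (hy i)

theorem Rat.smul {x : V} (hx : Rat b F₀ x) {c : F} (hc : c ∈ F₀) : Rat b F₀ (c • x) := fun i => by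
  simpa using F₀.mul_mem hc (hx i)

theorem rat_basis (i : ι) : Rat b F₀ (b i) := fun j => by
  classical
  simp only [Basis.repr_self, Finsupp.single_apply]
  split_ifs
  · exact F₀.one_mem
  · exact F₀.zero_mem

theorem Rat.ratPt {x : V} (hx : Rat b F₀ x) : RatPt b F₀ x := ⟨1, x, hx, by simp⟩

theorem RatPt.smul {x : V} (hx : RatPt b F₀ x) (c : F) : RatPt b F₀ (c • x) := by
  obtain ⟨a, v, hv, rfl⟩ := hx
  exact ⟨c * a, v, hv, by rw [smul_smul]⟩

theorem RatPt.of_smul {x : V} {c : F} (hx : RatPt b F₀ (c • x)) (hc : c ≠ 0) : RatPt b F₀ x := by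
  simpa [smul_smul, hc] using hx.smul c⁻¹

theorem proj_add (f : F →ₗ[F₀] F₀) (x y : V) : proj b f (x + y) = proj b f x + proj b f y := by
  apply b.repr.injective
  ext i
  simp [repr_proj]

theorem proj_zero (f : F →ₗ[F₀] F₀) : proj b f (0 : V) = 0 := by simp [proj]

theorem proj_smul (f : F →ₗ[F₀] F₀) {v : V} (hv : Rat b F₀ v) (c : F) :
    proj b f (c • v) = (f c : F) • v := by
  apply b.repr.injective
  ext i
  simp only [repr_proj, map_smul, Finsupp.smul_apply, smul_eq_mul]
  exact proj_mul_of_mem' f (hv i) c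

theorem proj_rat (f : F →ₗ[F₀] F₀) {v : V} (hv : Rat b F₀ v) : proj b f v = (f 1 : F) • v := by
  rw [← proj_smul f hv, one_smul]

theorem eq_zero_of_proj {x : V} (h : ∀ f : F →ₗ[F₀] F₀, proj b f x = 0) : x = 0 := by
  apply b.repr.injective
  ext i
  by_contra hi
  obtain ⟨f, hf⟩ := H97.exists_dual_of_ne_zero (F := F₀) (V := F) (u := b.repr x i)
    (by simpa using hi) 1
  have := repr_proj (b := b) f x i
  rw [h f, hf] at this
  simp at this

theorem rat_of_proj {x : V} (h : ∀ f : F →ₗ[F₀] F₀, f 1 = 0 → proj b f x = 0) : Rat b F₀ x := by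
  intro i
  refine mem_of_proj fun f hf => ?_
  have := repr_proj (b := b) f x i
  rw [h f hf] at this
  simpa using this.symm

theorem RatD.proj {φ : Dual F V} (hφ : RatD b F₀ φ) (f : F →ₗ[F₀] F₀) (x : V) :
    φ (proj b f x) = f (φ x) := by
  conv_rhs => rw [← b.sum_repr x]
  simp only [H11.Sub.proj, map_sum, map_smul, smul_eq_mul, AddSubmonoidClass.coe_finsetSum]
  exact Finset.sum_congr rfl fun i _ => (proj_mul_of_mem' f (hφ _ (rat_basis i)) _).symm

theorem projD_apply (f : F →ₗ[F₀] F₀) (φ : Dual F V) {x : V} (hx : Rat b F₀ x) :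
    projD b f φ x = f (φ x) := by
  conv_rhs => rw [← b.sum_repr x]
  conv_lhs => rw [← b.sum_repr x]
  simp only [projD, map_sum, map_smul, smul_eq_mul, AddSubmonoidClass.coe_finsetSum,
    Basis.constr_basis]
  exact Finset.sum_congr rfl fun i _ => (proj_mul_of_mem f (hx i) _).symm

theorem ratD_projD (f : F →ₗ[F₀] F₀) (φ : Dual F V) : RatD b F₀ (projD b f φ) := fun x hx => by
  rw [projD_apply f φ hx]; exact (f _).2

theorem ratD_of_basis {φ : Dual F V} (h : ∀ i, φ (b i) ∈ F₀) : RatD b F₀ φ := fun x hx => by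
  rw [← b.sum_repr x, map_sum]
  exact F₀.sum_mem fun i _ => by simpa using F₀.mul_mem (hx i) (h i)

theorem ratD_zero : RatD b F₀ (0 : Dual F V) := fun _ _ => by simp

theorem RatD.add {φ ψ : Dual F V} (h : RatD b F₀ φ) (h' : RatD b F₀ ψ) : RatD b F₀ (φ + ψ) :=
  fun x hx => F₀.add_mem (h x hx) (h' x hx)

theorem RatD.smul {φ : Dual F V} (h : RatD b F₀ φ) {c : F} (hc : c ∈ F₀) : RatD b F₀ (c • φ) :=
  fun x hx => F₀.mul_mem hc (h x hx)

theorem ratD_coord (i : ι) : RatD b F₀ (b.coord i) := fun _ hx => hx i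

/-- A functional vanishing on all rational vectors vanishes. -/
theorem dual_eq_zero_of_rat {φ : Dual F V} (h : ∀ x, Rat b F₀ x → φ x = 0) : φ = 0 :=
  b.ext fun i => h _ (rat_basis i)

/-- A subspace closed under all the projections. -/
def RatSub (b : Basis ι F V) (F₀ : Subfield F) (W : Submodule F V) : Prop :=
  ∀ f : F →ₗ[F₀] F₀, ∀ x ∈ W, proj b f x ∈ W

theorem ratSub_top : RatSub b F₀ (⊤ : Submodule F V) := fun _ _ _ => Submodule.mem_top

theorem RatSub.inf {W W' : Submodule F V} (h : RatSub b F₀ W) (h' : RatSub b F₀ W') :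
    RatSub b F₀ (W ⊓ W') := fun f x hx => ⟨h f x hx.1, h' f x hx.2⟩

theorem RatSub.sup {W W' : Submodule F V} (h : RatSub b F₀ W) (h' : RatSub b F₀ W') :
    RatSub b F₀ (W ⊔ W') := fun f x hx => by
  obtain ⟨y, hy, z, hz, rfl⟩ := Submodule.mem_sup.1 hx
  rw [proj_add]
  exact Submodule.add_mem_sup (h f y hy) (h' f z hz)

theorem ratSub_span {S : Set V} (hS : ∀ x ∈ S, RatPt b F₀ x) : RatSub b F₀ (Submodule.span F S) := by
  intro f x hx
  induction hx using Submodule.span_induction generalizing f with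
  | mem x hx =>
    obtain ⟨c, v, hv, rfl⟩ := hS x hx
    by_cases hc : c = 0
    · subst hc; simp [proj_zero]
    rw [proj_smul f hv]
    have : v = c⁻¹ • c • v := by simp [smul_smul, hc]
    rw [this]
    exact Submodule.smul_mem _ _ (Submodule.smul_mem _ _ (Submodule.subset_span hx))
  | zero => simp [proj_zero]
  | add x y _ _ hx hy => rw [proj_add]; exact Submodule.add_mem _ (hx f) (hy f)
  | smul c x _ hx =>
    have : proj b f (c • x) = proj b (f ∘ₗ (LinearMap.mulLeft F₀ c)) x := by
      apply b.repr.injective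
      ext i
      simp [repr_proj]
    rw [this]
    exact hx _

theorem RatD.ratSub_ker {φ : Dual F V} (hφ : RatD b F₀ φ) : RatSub b F₀ (LinearMap.ker φ) :=
  fun f x hx => by
    rw [LinearMap.mem_ker] at hx ⊢
    rw [hφ.proj, hx]; simp

/-- A non-zero rational subspace contains a non-zero rational vector. -/
theorem RatSub.exists_rat {W : Submodule F V} (hW : RatSub b F₀ W) {x : V} (hx : x ∈ W)
    (hx0 : x ≠ 0) : ∃ v ∈ W, Rat b F₀ v ∧ v ≠ 0 := by
  by_contra h
  push Not at h
  exact hx0 (eq_zero_of_proj fun f => h _ (hW f x hx) (rat_proj f x))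

/-- A rational subspace is spanned by its rational vectors. -/
theorem RatSub.le_of_rat {W U : Submodule F V} (hW : RatSub b F₀ W)
    (h : ∀ v ∈ W, Rat b F₀ v → v ∈ U) [Module.Finite F₀ F] : W ≤ U := by
  intro x hx
  let e := Module.finBasis F₀ F
  have : x = ∑ k, e k • proj b (e.coord k) x := by
    apply b.repr.injective
    ext i
    simp only [map_sum, map_smul, Finsupp.finsetSum_apply, Finsupp.smul_apply, repr_proj,
      Basis.coord_apply, smul_eq_mul]
    conv_lhs => rw [← e.sum_repr (b.repr x i)]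
    exact Finset.sum_congr rfl fun k _ => mul_comm _ _
  rw [this]
  exact U.sum_mem fun k _ => U.smul_mem _ (h _ (hW _ x hx) (rat_proj _ x))

theorem RatSub.exists_rat_notMem {W U : Submodule F V} (hW : RatSub b F₀ W) (h : ¬ W ≤ U)
    [Module.Finite F₀ F] : ∃ v ∈ W, Rat b F₀ v ∧ v ∉ U := by
  by_contra hc
  push Not at hc
  exact h (hW.le_of_rat hc)

/-- A vector spanning a rational line is a rational point. -/
theorem ratPt_of_ratSub {W : Submodule F V} (hW : RatSub b F₀ W) {u : V} (hu : u ∈ W)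
    (h : ∀ x ∈ W, x ∈ F ∙ u) : RatPt b F₀ u := by
  by_cases hu0 : u = 0
  · rw [hu0]; exact rat_zero.ratPt
  obtain ⟨v, hv, hv1, hv0⟩ := hW.exists_rat hu hu0
  obtain ⟨c, rfl⟩ := Submodule.mem_span_singleton.1 (h v hv)
  exact hv1.ratPt.of_smul (fun h => hv0 (by simp [h]))

theorem mem_of_rat_smul {v : V} (hv : Rat b F₀ v) (hv0 : v ≠ 0) {c : F} (h : Rat b F₀ (c • v)) :
    c ∈ F₀ := by
  refine mem_of_proj fun f hf => ?_
  have h1 := proj_smul f hv c
  rw [proj_rat f h, hf] at h1
  simpa [hv0] using h1.symm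

/-- Coefficients of a rational vector with respect to independent rational vectors. -/
theorem mem_of_rat_add {v : V} {W : Submodule F V} (hW : RatSub b F₀ W) (hv : Rat b F₀ v)
    (hvW : v ∉ W) {c : F} {w : V} (hw : w ∈ W) (h : Rat b F₀ (w + c • v)) : c ∈ F₀ := by
  refine mem_of_proj fun f hf => ?_
  have h1 := proj_rat f h
  rw [proj_add, proj_smul f hv, hf] at h1
  by_contra hc
  apply hvW
  have h2 : (f c : F) ≠ 0 := by simpa using hc
  have h3 : v = -((f c : F)⁻¹ • proj b f w) := by
    have h4 : proj b f w = -((f c : F) • v) := by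
      simpa [add_eq_zero_iff_eq_neg] using h1
    rw [h4]; simp [smul_smul, h2]
  rw [h3]
  exact W.neg_mem (W.smul_mem _ (hW f w hw))

/-- Rational solutions of rational linear systems. -/
theorem RatSub.exists_rat_apply_eq_one {W : Submodule F V} (hW : RatSub b F₀ W) {φ : Dual F V}
    (hφ : RatD b F₀ φ) {x : V} (hx : x ∈ W) (h : φ x ≠ 0) :
    ∃ v ∈ W, Rat b F₀ v ∧ φ v = 1 := by
  obtain ⟨f, hf⟩ := exists_proj_one F₀
  refine ⟨proj b f ((φ x)⁻¹ • x), hW f _ (W.smul_mem _ hx), rat_proj _ _, ?_⟩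
  rw [hφ.proj]; simp [h, hf]

theorem exists_ratD_of_notMem {W : Submodule F V} (hW : RatSub b F₀ W) {v : V} (hv : Rat b F₀ v)
    (hvW : v ∉ W) [Module.Finite F₀ F] :
    ∃ φ : Dual F V, RatD b F₀ φ ∧ (∀ w ∈ W, φ w = 0) ∧ φ v = 1 := by
  obtain ⟨f, hf⟩ := exists_proj_one F₀
  obtain ⟨φ, h1, h2⟩ := exists_dual_of_notMem W hvW (1 : F)
  refine ⟨projD b f φ, ratD_projD f φ, fun w hw => ?_, ?_⟩
  · refine hW.le_of_rat (U := LinearMap.ker (projD b f φ)) (fun x hx hx' => ?_) hw
    rw [LinearMap.mem_ker, projD_apply f φ hx', h1 x hx]; simp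
  · rw [projD_apply f φ hv, h2, hf]; simp

theorem exists_ratD_notMem {x : V} (hx : ¬ Rat b F₀ x) : ∃ φ : Dual F V, RatD b F₀ φ ∧ φ x ∉ F₀ := by
  simp only [Rat, not_forall] at hx
  obtain ⟨i, hi⟩ := hx
  exact ⟨b.coord i, ratD_coord i, hi⟩

variable (b F₀) in
/-- The automorphisms mapping the rational vectors onto a multiple of themselves. -/
def ratNorm : Subgroup (V ≃ₗ[F] V) where
  carrier := {g | ∃ c : F, c ≠ 0 ∧ ∀ x, Rat b F₀ x ↔ Rat b F₀ (c • g x)}
  one_mem' := ⟨1, one_ne_zero, fun x => by simp⟩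
  mul_mem' := by
    rintro g h ⟨c, hc, hg⟩ ⟨d, hd, hh⟩
    refine ⟨c * d, mul_ne_zero hc hd, fun x => ?_⟩
    rw [hh, hg, map_smul, smul_smul]; rfl
  inv_mem' := by
    rintro g ⟨c, hc, hg⟩
    refine ⟨c⁻¹, inv_ne_zero hc, fun x => ?_⟩
    rw [hg (c⁻¹ • g⁻¹ x), map_smul, le_apply_inv, smul_smul, mul_inv_cancel₀ hc, one_smul]

theorem mem_ratNorm_of_maps [Finite V] {g : V ≃ₗ[F] V} {c : F} (hc : c ≠ 0)
    (h : ∀ x, Rat b F₀ x → Rat b F₀ (c • g x)) : g ∈ ratNorm b F₀ := by
  refine ⟨c, hc, fun x => ⟨h x, fun hx => ?_⟩⟩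
  let k : {x // Rat b F₀ x} → {x // Rat b F₀ x} := fun y => ⟨c • g y.1, h _ y.2⟩
  have hinj : ∀ y z : V, c • g y = c • g z → y = z := fun y z e =>
    g.injective (smul_right_injective V hc e)
  have hk : Function.Injective k := fun y z e => Subtype.ext (hinj _ _ (congrArg Subtype.val e))
  obtain ⟨y, hy⟩ := Finite.surjective_of_injective hk ⟨_, hx⟩
  rw [← hinj _ _ (congrArg Subtype.val hy)]
  exact y.2

theorem RatPt.apply {g : V ≃ₗ[F] V} (hg : g ∈ ratNorm b F₀) {x : V} (hx : RatPt b F₀ x) :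
    RatPt b F₀ (g x) := by
  obtain ⟨c, hc, h⟩ := hg
  obtain ⟨a, v, hv, rfl⟩ := hx
  rw [map_smul]
  exact (((h v).1 hv).ratPt.of_smul hc).smul a

/-- Two independent rational vectors whose images and the image of whose sum are rational points
have a common multiplier. -/
theorem rat_smul_of_sum {g : V ≃ₗ[F] V} {x y : V} (hxy : y ∉ F ∙ x) {c : F} (hc : c ≠ 0)
    (hx : Rat b F₀ (c • g x)) (hx0 : x ≠ 0) (hy : RatPt b F₀ (g y)) (hs : RatPt b F₀ (g (x + y))) :
    Rat b F₀ (c • g y) := by
  obtain ⟨a, v, hv, e⟩ := hy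
  obtain ⟨a', v', hv', e'⟩ := hs
  have hy0 : y ≠ 0 := fun h => hxy (by simp [h])
  have ha : a ≠ 0 := fun h => hy0 (g.injective (by simp [e, h]))
  have hs0 : x + y ≠ 0 := fun h => hxy (by
    rw [eq_neg_of_add_eq_zero_right h]
    exact Submodule.neg_mem _ (Submodule.mem_span_singleton_self x))
  have ha' : a' ≠ 0 := fun h => hs0 (g.injective (by rw [e', h]; simp))
  have hv'' : v' = (a'⁻¹ * c⁻¹) • (c • g x) + (a'⁻¹ * a) • v := by
    have : v' = a'⁻¹ • g (x + y) := by rw [e']; simp [smul_smul, ha']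
    rw [this, map_add, e, smul_add, smul_smul, smul_smul, mul_assoc, inv_mul_cancel₀ hc, mul_one]
  have hvx : v ∉ F ∙ (c • g x) := by
    intro h
    obtain ⟨t, ht⟩ := Submodule.mem_span_singleton.1 h
    apply hxy
    refine Submodule.mem_span_singleton.2 ⟨a * t * c, g.injective ?_⟩
    rw [map_smul, e, ← ht, smul_smul, smul_smul]
  have hxv : c • g x ∉ F ∙ v := by
    intro h
    obtain ⟨t, ht⟩ := Submodule.mem_span_singleton.1 h
    have ht0 : t ≠ 0 := by
      rintro rfl
      simp only [zero_smul] at ht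
      exact hx0 (by simpa [hc] using ht.symm)
    apply hvx
    rw [← ht]
    exact Submodule.mem_span_singleton.2 ⟨t⁻¹, by simp [smul_smul, ht0]⟩
  have h1 : a'⁻¹ * a ∈ F₀ :=
    mem_of_rat_add (ratSub_span (S := {c • g x}) (by simpa using hx.ratPt)) hv hvx
      (Submodule.smul_mem _ _ (Submodule.mem_span_singleton_self _)) (hv'' ▸ hv')
  have h2 : a'⁻¹ * c⁻¹ ∈ F₀ :=
    mem_of_rat_add (ratSub_span (S := {v}) (by simpa using hv.ratPt)) hx hxv
      (Submodule.smul_mem _ (a'⁻¹ * a) (Submodule.mem_span_singleton_self _))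
      (by rw [add_comm]; exact hv'' ▸ hv')
  have h3 : c * a ∈ F₀ := by
    have := F₀.div_mem h1 h2
    convert this using 1
    field_simp
  rw [e, smul_smul]
  exact hv.smul h3

/-- No functional without rational zeros can arise from a rational rank one perturbation. -/
theorem generic_contra {g : V ≃ₗ[F] V} {a a' v z : V} {φ : Dual F V} (ha : Rat b F₀ a)
    (ha' : Rat b F₀ a') (hv : Rat b F₀ v) (haa : a' ∉ F ∙ a) (ha0 : a ≠ 0)
    (hva : v ∉ Submodule.span F {a, a'})
    (hga : g a = a + φ a • z) (hgv : g v = v + φ v • z) (hg1 : g a ∈ F ∙ a')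
    (h1 : RatPt b F₀ (g v)) (h2 : RatPt b F₀ (g (a + v)))
    (hφ : ∀ t ∈ F₀, φ (a + t • v) ≠ 0) (hφv : φ v ≠ 0) : False := by
  have hφa : φ a ≠ 0 := by simpa using hφ 0 F₀.zero_mem
  obtain ⟨s, hs⟩ := Submodule.mem_span_singleton.1 hg1
  have hz : z = (φ a)⁻¹ • (s • a' - a) := by
    rw [hs, hga]; simp [smul_smul, hφa]
  have hzm : z ∈ Submodule.span F {a, a'} := by
    rw [hz]
    exact Submodule.smul_mem _ _ (Submodule.sub_mem _ (Submodule.smul_mem _ _
      (Submodule.subset_span (by simp))) (Submodule.subset_span (by simp)))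
  have hz0 : z ≠ 0 := by
    intro h
    rw [h, smul_zero, add_zero] at hga
    rw [hga] at hs
    have hs0 : s ≠ 0 := by rintro rfl; exact ha0 (by simpa using hs.symm)
    exact haa (Submodule.mem_span_singleton.2 ⟨s⁻¹, by rw [← hs]; simp [smul_smul, hs0]⟩)
  have hR : RatSub b F₀ (Submodule.span F {a, a'}) := ratSub_span (by
    rintro x (rfl | rfl)
    exacts [ha.ratPt, ha'.ratPt])
  have key : ∀ w ∈ Submodule.span F {a, a'}, RatPt b F₀ (w + v) → Rat b F₀ w := by
    rintro w hw ⟨c, y, hy, e⟩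
    have hc : c ≠ 0 := by
      rintro rfl
      apply hva
      rw [zero_smul] at e
      rw [eq_neg_of_add_eq_zero_right e]
      exact Submodule.neg_mem _ hw
    have e' : y = c⁻¹ • w + c⁻¹ • v := by rw [← smul_add, e]; simp [smul_smul, hc]
    have h3 : c⁻¹ ∈ F₀ := mem_of_rat_add hR hv hva (Submodule.smul_mem _ _ hw) (e' ▸ hy)
    have h4 : c ∈ F₀ := by simpa using F₀.inv_mem h3
    have : w = c • y - v := by rw [← e]; simp
    rw [this]
    exact (hy.smul h4).sub hv
  have h3 : Rat b F₀ (φ v • z) := key _ (Submodule.smul_mem _ _ hzm) (by rwa [add_comm, ← hgv])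
  have h4 : Rat b F₀ (a + φ (a + v) • z) := key _
    (Submodule.add_mem _ (Submodule.subset_span (by simp)) (Submodule.smul_mem _ _ hzm)) (by
      convert h2 using 1
      rw [map_add g, hga, hgv, map_add]; module)
  have h5 : Rat b F₀ ((φ (a + v) / φ v) • φ v • z) := by
    have := h4.sub ha
    simpa [smul_smul, hφv] using this
  have h6 : φ (a + v) / φ v ∈ F₀ := mem_of_rat_smul h3 (by simp [hφv, hz0]) h5
  apply hφ (1 - φ (a + v) / φ v) (F₀.sub_mem F₀.one_mem h6)
  simp only [map_add, map_smul, smul_eq_mul]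
  field_simp
  ring

end Rat

section Orbit

open scoped Pointwise

/-- If `y` has exactly one fixed point on a finite orbit and `x`, `y` act with order dividing a
prime, then `x` has a fixed point there as well. -/
theorem exists_fixed_in_orbit {G X : Type*} [Group G] [MulAction G X] (p : ℕ) [Fact p.Prime]
    (x y : G) (w : X) [Finite (MulAction.orbit G w)]
    (hx : ∀ z ∈ MulAction.orbit G w, x ^ p • z = z) (hy : ∀ z ∈ MulAction.orbit G w, y ^ p • z = z)
    (hw : y • w = w) (hu : ∀ z ∈ MulAction.orbit G w, y • z = z → z = w) :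
    ∃ z ∈ MulAction.orbit G w, x • z = z := by
  classical
  let α := MulAction.orbit G w
  have := Fintype.ofFinite α
  have hpow : ∀ g : G, (∀ z ∈ MulAction.orbit G w, g ^ p • z = z) →
      (MulAction.toPerm g : Equiv.Perm α) ^ p ^ 1 = 1 := by
    intro g hg
    rw [pow_one]
    have : (MulAction.toPerm g : Equiv.Perm α) ^ p = MulAction.toPerm (g ^ p) :=
      (map_pow (MulAction.toPermHom G α) g p).symm
    rw [this]
    ext z
    exact hg z.1 z.2
  by_cases hp : p ∣ Fintype.card α
  · exfalso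
    obtain ⟨z, hz, hz'⟩ := Equiv.Perm.exists_fixed_point_of_prime' hp (hpow y hy)
      (a := ⟨w, MulAction.mem_orbit_self w⟩) (Subtype.ext hw)
    exact hz' (Subtype.ext (hu z.1 z.2 (congrArg Subtype.val hz)))
  · obtain ⟨z, hz⟩ := Equiv.Perm.exists_fixed_point_of_prime hp (hpow x hx)
    exact ⟨z.1, z.2, congrArg Subtype.val hz⟩

variable {F V : Type*} [Field F] [AddCommGroup V] [Module F V]

theorem pow_apply_of_transv {x : V ≃ₗ[F] V} {d u : V} {α : F} (hd : x d = d) (hu : x u = u + α • d)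
    (n : ℕ) : (x ^ n) d = d ∧ (x ^ n) u = u + ((n : F) * α) • d := by
  induction n with
  | zero => simp
  | succ n ih =>
    rw [pow_succ', le_mul_apply, le_mul_apply, ih.1, ih.2, map_add, map_smul, hd, hu]
    refine ⟨rfl, ?_⟩
    push_cast
    module

/-- Two transvections of a plane with different centres generate a group carrying one centre to
the other. -/
theorem exists_map_center [Finite F] {x y : V ≃ₗ[F] V} {d u : V} {α β : F}
    (hdu : ∀ s t : F, s • d + t • u = 0 → s = 0 ∧ t = 0)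
    (hxd : x d = d) (hxu : x u = u + α • d) (hyu : y u = u) (hyd : y d = d + β • u)
    (hα : α ≠ 0) (hβ : β ≠ 0) :
    ∃ k ∈ Subgroup.closure {x, y}, ∃ c : F, c ≠ 0 ∧ k d = c • u := by
  classical
  obtain ⟨p, hp⟩ := CharP.exists F
  have hpp : p.Prime := CharP.char_is_prime F p
  have := Fact.mk hpp
  let K := Subgroup.closure ({x, y} : Set (V ≃ₗ[F] V))
  have hK : ∀ k ∈ K, ∀ s t : F, ∃ s' t' : F, k (s • d + t • u) = s' • d + t' • u := by
    intro k hk
    have hxu' : x⁻¹ u = u - α • d := by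
      apply x.injective
      rw [le_apply_inv, map_sub, map_smul, hxu, hxd]; simp
    have hxd' : x⁻¹ d = d := by apply x.injective; rw [le_apply_inv, hxd]
    have hyd' : y⁻¹ d = d - β • u := by
      apply y.injective
      rw [le_apply_inv, map_sub, map_smul, hyu, hyd]; simp
    have hyu' : y⁻¹ u = u := by apply y.injective; rw [le_apply_inv, hyu]
    induction hk using Subgroup.closure_induction'' with
    | one => exact fun s t => ⟨s, t, rfl⟩
    | mem g hg =>
      intro s t
      rcases hg with rfl | rfl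
      · exact ⟨s + t * α, t, by rw [map_add, map_smul, map_smul, hxd, hxu]; module⟩
      · exact ⟨s, s * β + t, by rw [map_add, map_smul, map_smul, hyd, hyu]; module⟩
    | inv_mem g hg =>
      intro s t
      rcases hg with rfl | rfl
      · exact ⟨s - t * α, t, by rw [map_add, map_smul, map_smul, hxd', hxu']; module⟩
      · exact ⟨s, t - s * β, by rw [map_add, map_smul, map_smul, hyd', hyu']; module⟩
    | mul g h _ _ hg hh =>
      intro s t
      obtain ⟨s1, t1, e1⟩ := hh s t
      obtain ⟨s2, t2, e2⟩ := hg s1 t1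
      exact ⟨s2, t2, by rw [le_mul_apply, e1, e2]⟩
  have hxK : x ∈ K := Subgroup.subset_closure (by simp)
  have hyK : y ∈ K := Subgroup.subset_closure (by simp)
  have hsm : ∀ (k : K) (v : V), k • (F ∙ v) = F ∙ (k.1 v) := by
    intro k v
    change Submodule.map (k.1 : V →ₗ[F] V) (F ∙ v) = _
    rw [Submodule.map_span]; simp
  have horb : ∀ z ∈ MulAction.orbit K (F ∙ u), ∃ k : K, ∃ s t : F,
      k.1 u = s • d + t • u ∧ z = F ∙ (s • d + t • u) := by
    rintro z ⟨k, rfl⟩
    obtain ⟨s, t, e⟩ := hK k.1 k.2 0 1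
    simp only [zero_smul, one_smul, zero_add] at e
    exact ⟨k, s, t, e, by simp only [hsm, e]⟩
  have hfin : Finite (MulAction.orbit K (F ∙ u)) := by
    have : MulAction.orbit K (F ∙ u) ⊆ Set.range (fun st : F × F => F ∙ (st.1 • d + st.2 • u)) := by
      intro z hz
      obtain ⟨k, s, t, -, e⟩ := horb z hz
      exact ⟨(s, t), e.symm⟩
    exact (Set.finite_range _).subset this
  obtain ⟨z, hz, hz'⟩ := exists_fixed_in_orbit p (⟨x, hxK⟩ : K) ⟨y, hyK⟩ (F ∙ u)
    (fun z hz => by
      obtain ⟨k, s, t, -, rfl⟩ := horb z hz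
      rw [hsm]
      have := pow_apply_of_transv hxd hxu p
      simp only [SubmonoidClass.mk_pow, map_add, map_smul, this.1, this.2]
      simp)
    (fun z hz => by
      obtain ⟨k, s, t, -, rfl⟩ := horb z hz
      rw [hsm]
      have := pow_apply_of_transv hyu hyd p
      simp only [SubmonoidClass.mk_pow, map_add, map_smul, this.1, this.2]
      simp)
    (by rw [hsm]; simp only [hyu])
    (fun z hz h => by
      obtain ⟨k, s, t, e, rfl⟩ := horb z hz
      rw [hsm] at h
      have h1 : y (s • d + t • u) ∈ F ∙ (s • d + t • u) :=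
        h ▸ Submodule.mem_span_singleton_self _
      obtain ⟨c, hc⟩ := Submodule.mem_span_singleton.1 h1
      rw [map_add, map_smul, map_smul, hyd, hyu] at hc
      have h2 := hdu (c * s - s) (c * t - s * β - t) (by linear_combination (norm := module) hc)
      have hs : s = 0 := by
        by_contra hs
        have hc1 : c = 1 := by
          have := h2.1
          exact mul_right_cancel₀ hs (by linear_combination this)
        have := h2.2
        rw [hc1] at this
        exact mul_ne_zero hs hβ (by linear_combination -this)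
      subst hs
      have ht : t ≠ 0 := by
        rintro rfl
        have : u = 0 := k.1.injective (by simpa using e)
        exact one_ne_zero (hdu 0 1 (by simp [this])).2
      simp only [zero_smul, zero_add]
      exact Submodule.span_singleton_smul_eq (IsUnit.mk0 t ht) u)
  obtain ⟨k, s, t, e, rfl⟩ := horb z hz
  rw [hsm] at hz'
  have h1 : x (s • d + t • u) ∈ F ∙ (s • d + t • u) := hz' ▸ Submodule.mem_span_singleton_self _
  obtain ⟨c, hc⟩ := Submodule.mem_span_singleton.1 h1
  rw [map_add, map_smul, map_smul, hxd, hxu] at hc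
  have h2 := hdu (c * s - t * α - s) (c * t - t) (by linear_combination (norm := module) hc)
  have ht : t = 0 := by
    by_contra ht
    have hc1 : c = 1 := by
      have := h2.2
      exact mul_right_cancel₀ ht (by linear_combination this)
    have := h2.1
    rw [hc1] at this
    exact mul_ne_zero ht hα (by linear_combination -this)
  subst ht
  have hs : s ≠ 0 := by
    rintro rfl
    have : u = 0 := k.1.injective (by simpa using e)
    exact one_ne_zero (hdu 0 1 (by simp [this])).2
  refine ⟨k.1⁻¹, K.inv_mem k.2, s⁻¹, inv_ne_zero hs, ?_⟩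
  apply k.1.injective
  rw [le_apply_inv, map_smul, e]
  simp [smul_smul, hs]

end Orbit

section Bridge

open scoped Matrix MatrixGroups

variable {ι : Type} [Fintype ι] [DecidableEq ι] {F : Type*} [Field F]

/-- The basis of columns of `P`. -/
noncomputable def colBasis (P : GL ι F) : Basis ι F (ι → F) := (Pi.basisFun F ι).map (toLE ι F P)

theorem rat_colBasis_iff (P : GL ι F) (F₀ : Subfield F) (x : ι → F) :
    Rat (colBasis P) F₀ x ↔ ∀ i, (((P⁻¹ : GL ι F) : Matrix ι ι F) *ᵥ x) i ∈ F₀ := by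
  have : ∀ i, (colBasis P).repr x i = (((P⁻¹ : GL ι F) : Matrix ι ι F) *ᵥ x) i := by
    intro i
    rw [← toLE_apply, map_inv]
    simp [colBasis]
  simp only [Rat, this]

theorem rat_colBasis_iff' (P : GL ι F) (F₀ : Subfield F) (x : ι → F) :
    Rat (colBasis P) F₀ x ↔ ∃ u : ι → F, (∀ i, u i ∈ F₀) ∧ x = (P : Matrix ι ι F) *ᵥ u := by
  rw [rat_colBasis_iff]
  constructor
  · intro h
    exact ⟨_, h, by rw [Matrix.mulVec_mulVec, Units.mul_inv, Matrix.one_mulVec]⟩
  · rintro ⟨u, hu, rfl⟩
    rw [Matrix.mulVec_mulVec, Units.inv_mul, Matrix.one_mulVec]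
    exact hu

theorem subfieldSubgroup_eq [Finite F] (F₀ : Subfield F) (P : GL ι F) :
    Geo.subfieldSubgroup F₀ P = pull (ratNorm (colBasis P) F₀) := by
  apply le_antisymm
  · rw [Geo.subfieldSubgroup, Subgroup.map_le_iff_le_comap, sup_le_iff]
    constructor
    · rintro _ ⟨A, rfl⟩
      rw [Subgroup.mem_comap, mem_pull]
      refine mem_ratNorm_of_maps one_ne_zero fun x hx => ?_
      rw [rat_colBasis_iff'] at hx ⊢
      obtain ⟨u, hu, rfl⟩ := hx
      refine ⟨(A.1.map F₀.subtype) *ᵥ u, fun i => ?_, ?_⟩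
      · exact F₀.sum_mem fun j _ => F₀.mul_mem (A.1 i j).2 (hu j)
      · rw [one_smul, toLE_apply]
        simp only [MulEquiv.toMonoidHom_eq_coe, MonoidHom.coe_coe, MulAut.conj_apply,
          Units.val_mul, Matrix.mulVec_mulVec, mul_assoc, Units.inv_mul, mul_one]
        rfl
    · intro g hg
      obtain ⟨c, hc⟩ := (Geo.mem_scalars_iff g).1 hg
      rw [Subgroup.mem_comap, mem_pull]
      refine mem_ratNorm_of_maps (c := (c : F)⁻¹) (by simp) fun x hx => ?_
      rw [toLE_apply]
      simp only [MulEquiv.toMonoidHom_eq_coe, MonoidHom.coe_coe, MulAut.conj_apply,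
        Units.val_mul, hc, Matrix.mul_smul, mul_one, Matrix.smul_mul, Units.mul_inv,
        Matrix.smul_mulVec, Matrix.one_mulVec, smul_smul]
      simpa using hx
  · intro g hg
    obtain ⟨c, hc, h⟩ := mem_pull.1 hg
    let A : Matrix ι ι F := c • ((P⁻¹ * g * P : GL ι F) : Matrix ι ι F)
    have hA : ∀ i j, A i j ∈ F₀ := by
      intro i j
      have h1 : Rat (colBasis P) F₀ ((P : Matrix ι ι F) *ᵥ Pi.single j 1) :=
        (rat_colBasis_iff' P F₀ _).2 ⟨_, fun k => by
          by_cases hk : k = j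
          · subst hk; simp
          · simp [hk], rfl⟩
      have h2 := (rat_colBasis_iff P F₀ _).1 ((h _).1 h1) i
      rw [toLE_apply, Matrix.mulVec_smul, Matrix.mulVec_mulVec, Matrix.mulVec_mulVec] at h2
      simpa [A] using h2
    let A₀ : Matrix ι ι F₀ := fun i j => ⟨A i j, hA i j⟩
    have hA₀ : A₀.map F₀.subtype = A := by ext i j; rfl
    have hdet : A₀.det ≠ 0 := by
      intro h0
      have h1 : A.det = 0 := by
        rw [← hA₀]
        have := RingHom.map_det F₀.subtype A₀
        rw [h0, map_zero] at this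
        exact this.symm
      simp only [A, Matrix.det_smul] at h1
      exact mul_ne_zero (pow_ne_zero _ hc) (Matrix.GeneralLinearGroup.det_ne_zero _) h1
    refine ⟨P⁻¹ * g * P, ?_, by simp [mul_assoc]⟩
    have e : P⁻¹ * g * P = Matrix.GeneralLinearGroup.map F₀.subtype
        (Matrix.GeneralLinearGroup.mkOfDetNeZero A₀ hdet) *
        Units.map (Matrix.scalar ι : F →+* Matrix ι ι F).toMonoidHom (Units.mk0 c hc)⁻¹ := by
      apply Units.ext
      change _ = A₀.map F₀.subtype * Matrix.scalar ι c⁻¹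
      rw [hA₀, Matrix.scalar_apply, ← Matrix.smul_one_eq_diagonal]
      simp [A, smul_smul, hc]
    rw [e]
    exact Subgroup.mul_mem_sup ⟨_, rfl⟩ ⟨_, rfl⟩

end Bridge

end H11.Sub
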