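import Mathlib
import Cfsg.Agent.Base
import Cfsg.Agent.Lib.Subfld.Rat

/-!
Subfield subgroups of prime index are maximal in `SL_n`, `n ≥ 4`.
-/

set_option autoImplicit false
set_option linter.unusedSectionVars false

namespace H11.Sub

open Module Cfsg H97

variable {F V : Type*} [Field F] [AddCommGroup V] [Module F V] {ι : Type*} [Fintype ι]
  {b : Basis ι F V} {F₀ : Subfield F}

theorem exists_ratD_of_notMem' {W : Submodule F V} (hW : RatSub b F₀ W) {v : V}
    (hvW : v ∉ W) [Module.Finite F₀ F] :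
    ∃ φ : Dual F V, RatD b F₀ φ ∧ (∀ w ∈ W, φ w = 0) ∧ φ v ≠ 0 := by
  obtain ⟨φ, h1, h2⟩ := exists_dual_of_notMem W hvW (1 : F)
  by_contra hc
  push Not at hc
  let e := Module.finBasis F₀ F
  have h3 : φ = ∑ k, e k • projD b (e.coord k) φ := by
    apply b.ext
    intro i
    simp only [LinearMap.sum_apply, LinearMap.smul_apply, projD, Basis.constr_basis,
      Basis.coord_apply, smul_eq_mul]
    conv_lhs => rw [← e.sum_repr (φ (b i))]
    exact Finset.sum_congr rfl fun k _ => mul_comm _ _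
  have h4 : ∀ f : F →ₗ[F₀] F₀, projD b f φ v = 0 := fun f => hc _ (ratD_projD f φ) fun w hw => by
    refine hW.le_of_rat (U := LinearMap.ker (projD b f φ)) (fun x hx hx' => ?_) hw
    rw [LinearMap.mem_ker, projD_apply f φ hx', h1 x hx]; simp
  rw [h3] at h2
  simp [h4] at h2

theorem not_ratPt_add_smul {a v : V} (ha : Rat b F₀ a) (hv : Rat b F₀ v) (ha0 : a ≠ 0)
    (hva : v ∉ F ∙ a) {s : F} (hs : s ∉ F₀) : ¬ RatPt b F₀ (v + s • a) := by
  rintro ⟨c, y, hy, e⟩
  have hc : c ≠ 0 := by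
    rintro rfl
    apply hva
    rw [zero_smul] at e
    rw [eq_neg_of_add_eq_zero_left e]
    exact Submodule.neg_mem _ (Submodule.smul_mem _ _ (Submodule.mem_span_singleton_self a))
  have e' : y = (c⁻¹ * s) • a + c⁻¹ • v := by
    have : y = c⁻¹ • (v + s • a) := by rw [e]; simp [smul_smul, hc]
    rw [this]; module
  have h3 : c⁻¹ ∈ F₀ := mem_of_rat_add (ratSub_span (S := {a}) (by simpa using ha.ratPt)) hv hva
    (Submodule.smul_mem _ _ (Submodule.mem_span_singleton_self a)) (e' ▸ hy)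
  have h4 : Rat b F₀ ((c⁻¹ * s) • a) := by
    have := hy.sub (hv.smul h3)
    rwa [e', add_sub_cancel_right] at this
  have h5 := F₀.div_mem (mem_of_rat_smul ha ha0 h4) h3
  apply hs
  convert h5 using 1
  field_simp

theorem finrank_span_pair_le (x y : V) : finrank F (Submodule.span F {x, y}) ≤ 2 := by
  classical
  have := finrank_span_finset_le_card (R := F) ({x, y} : Finset V)
  rw [Set.finrank, Finset.coe_pair] at this
  exact this.trans Finset.card_le_two

theorem finrank_span_triple_le (x y z : V) : finrank F (Submodule.span F {x, y, z}) ≤ 3 := by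
  classical
  have := finrank_span_finset_le_card (R := F) ({x, y, z} : Finset V)
  rw [Set.finrank, Finset.coe_insert, Finset.coe_pair] at this
  exact this.trans Finset.card_le_three

theorem ratSub_pair {x y : V} (hx : RatPt b F₀ x) (hy : RatPt b F₀ y) :
    RatSub b F₀ (Submodule.span F {x, y}) := ratSub_span (by
  rintro z (rfl | rfl)
  exacts [hx, hy])

theorem ratSub_single {x : V} (hx : RatPt b F₀ x) : RatSub b F₀ (F ∙ x) :=
  ratSub_span (by simpa using hx)

theorem finrank_inf_ker' [FiniteDimensional F V] (X : Submodule F V) (φ : Dual F V) :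
    finrank F X ≤ finrank F ↥(X ⊓ LinearMap.ker φ) + 1 := by
  have h1 := Submodule.finrank_sup_add_finrank_inf_eq X (LinearMap.ker φ)
  have h2 := LinearMap.finrank_range_add_finrank_ker φ
  have h3 : finrank F (LinearMap.range φ) ≤ 1 := by
    simpa using Submodule.finrank_le (LinearMap.range φ)
  have h4 := Submodule.finrank_le (X ⊔ LinearMap.ker φ)
  omega

theorem closure_pair_fix {x y k : V ≃ₗ[F] V} {z : V} (hx : x z = z) (hy : y z = z)
    (hk : k ∈ Subgroup.closure {x, y}) : k z = z := by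
  induction hk using Subgroup.closure_induction with
  | mem g hg => rcases hg with rfl | rfl <;> assumption
  | one => rfl
  | mul g h _ _ hg hh => rw [le_mul_apply, hh, hg]
  | inv g _ hg => apply g.injective; rw [le_apply_inv, hg]

theorem closure_pair_le {G : Type*} [Group G] {M : Subgroup G} {x y : G} (hx : x ∈ M) (hy : y ∈ M) :
    Subgroup.closure {x, y} ≤ M := by
  rw [Subgroup.closure_le]
  rintro z (rfl | rfl)
  exacts [hx, hy]

variable [Fintype F]

theorem finite_of_basis (b : Basis ι F V) : Finite V :=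
  have := Module.Finite.of_basis b
  Module.finite_of_finite F

theorem exists_ratD_pair (hn : 3 ≤ Fintype.card ι) {a v : V} (ha : RatPt b F₀ a)
    (hv : RatPt b F₀ v) : ∃ χ : Dual F V, RatD b F₀ χ ∧ χ ≠ 0 ∧ χ a = 0 ∧ χ v = 0 := by
  have := Module.Finite.of_basis b
  obtain ⟨w, -, hw, hw'⟩ := (ratSub_top (b := b) (F₀ := F₀)).exists_rat_notMem
    (U := Submodule.span F {a, v}) (fun h => by
      have h1 := Submodule.finrank_mono h
      have h2 := finrank_span_pair_le (F := F) a v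
      rw [finrank_top, finrank_eq_card_basis b] at h1
      omega)
  obtain ⟨χ, h1, h2, h3⟩ := exists_ratD_of_notMem (ratSub_pair ha hv) hw hw'
  exact ⟨χ, h1, fun h => by simp [h] at h3, h2 _ (Submodule.subset_span (by simp)),
    h2 _ (Submodule.subset_span (by simp))⟩

theorem exists_rat_ker_notMem {χ : Dual F V} (hχ : RatD b F₀ χ) (U : Submodule F V)
    (hn : finrank F U + 1 < Fintype.card ι) : ∃ a, Rat b F₀ a ∧ χ a = 0 ∧ a ∉ U := by
  have := Module.Finite.of_basis b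
  obtain ⟨a, h1, h2, h3⟩ := hχ.ratSub_ker.exists_rat_notMem (U := U) (fun h => by
    have h1 := Submodule.finrank_mono h
    have h2 := finrank_inf_ker' ⊤ χ
    rw [finrank_top, finrank_eq_card_basis b, top_inf_eq] at h2
    omega)
  exact ⟨a, h2, h1, h3⟩

theorem exists_rat_ker_pair (hn : 3 ≤ Fintype.card ι) {χ ψ : Dual F V} (hχ : RatD b F₀ χ)
    (hψ : RatD b F₀ ψ) : ∃ a, Rat b F₀ a ∧ a ≠ 0 ∧ χ a = 0 ∧ ψ a = 0 := by
  have := Module.Finite.of_basis b
  obtain ⟨a, h1, h2, h3⟩ := (hχ.ratSub_ker.inf hψ.ratSub_ker).exists_rat_notMem (U := ⊥)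
    (fun h => by
      have h1 := Submodule.finrank_mono h
      have h2 := finrank_inf_ker' ⊤ χ
      have h3 := finrank_inf_ker' (LinearMap.ker χ) ψ
      rw [finrank_top, finrank_eq_card_basis b, top_inf_eq] at h2
      rw [finrank_bot] at h1
      omega)
  exact ⟨a, h2, by simpa using h3, h1.1, h1.2⟩

theorem dual_eq_smul_of_ker {φ ψ : Dual F V} (hψ : ψ ≠ 0) (h : ∀ x, ψ x = 0 → φ x = 0) :
    ∃ c : F, φ = c • ψ := by
  obtain ⟨v, hv⟩ : ∃ v, ψ v ≠ 0 := by
    by_contra hc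
    push Not at hc
    exact hψ (LinearMap.ext hc)
  refine ⟨φ v / ψ v, LinearMap.ext fun x => ?_⟩
  have := h (x - (ψ x / ψ v) • v) (by simp [hv])
  simp only [map_sub, map_smul, smul_eq_mul] at this
  simp only [LinearMap.smul_apply, smul_eq_mul]
  field_simp
  field_simp at this
  linear_combination this

theorem hasT_ratNorm {a : V} {χ : Dual F V} (ha : Rat b F₀ a) (hχ : RatD b F₀ χ) (h : χ a = 0) :
    HasT (ratNorm b F₀ ⊓ SLV F V) a χ := by
  have := finite_of_basis b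
  obtain ⟨g, hg, e⟩ := (hasT_SLV h).elim
  refine ⟨g, ⟨mem_ratNorm_of_maps one_ne_zero fun x hx => ?_, hg⟩, e⟩
  rw [one_smul, e]
  exact hx.add (ha.smul (hχ x hx))

variable {M : Subgroup (V ≃ₗ[F] V)}

theorem SLV_le_of_level (hn : 3 ≤ Fintype.card ι) {r : ℕ} (hr : r.Prime)
    (hcard : Fintype.card F = Nat.card F₀ ^ r)
    (hM : ∀ a χ, Rat b F₀ a → RatD b F₀ χ → χ a = 0 → HasT M a χ)
    {a₀ : V} {χ₀ : Dual F V} (ha₀ : Rat b F₀ a₀) (hχ₀ : RatD b F₀ χ₀) (h₀ : χ₀ a₀ = 0)
    (ha0 : a₀ ≠ 0) (hχ0 : χ₀ ≠ 0) {s₀ : F} (hs₀ : s₀ ∉ F₀) (hT : HasT M a₀ (s₀ • χ₀)) :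
    SLV F V ≤ M := by
  classical
  have := Module.Finite.of_basis b
  -- changing the functional
  have step1 : ∀ (s : F) a χ χ', Rat b F₀ a → RatD b F₀ χ → RatD b F₀ χ' → χ a = 0 → χ' a = 0 →
      χ ≠ 0 → HasT M a (s • χ) → HasT M a (s • χ') := by
    intro s a χ χ' ha hχ hχ' h h' hne hT
    have aux : ∀ ψ, RatD b F₀ ψ → ψ a = 0 → (∃ v, ψ v = 0 ∧ χ v ≠ 0) → HasT M a (s • ψ) := by
      rintro ψ hψ hψa ⟨v, hv, hv'⟩
      obtain ⟨w, hw, hw1, hw2⟩ := hψ.ratSub_ker.exists_rat_apply_eq_one hχ hv hv'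
      have := hT.comm (hM w ψ hw1 hψ hw) (by simp [h]) hw hψa
      simpa [hw2] using this
    by_cases hex : ∃ v, χ' v = 0 ∧ χ v ≠ 0
    · exact aux χ' hχ' h' hex
    · push Not at hex
      obtain ⟨v, -, hv1, hv2⟩ := (ratSub_top (b := b) (F₀ := F₀)).exists_rat_apply_eq_one hχ
        (x := Classical.choose (DFunLike.ne_iff.1 hne)) Submodule.mem_top
        (by simpa using Classical.choose_spec (DFunLike.ne_iff.1 hne))
      obtain ⟨ψ, hψ, hψ0, hψa, hψv⟩ := exists_ratD_pair hn ha.ratPt hv1.ratPt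
      have h1 := aux ψ hψ hψa ⟨v, hψv, by simp [hv2]⟩
      by_cases h2 : ∃ w, (ψ + χ') w = 0 ∧ χ w ≠ 0
      · have h3 := aux (ψ + χ') (hψ.add hχ') (by simp [hψa, h']) h2
        have := h3.sub_right h1 (by simp [hψa, h']) (by simp [hψa])
        simpa using this
      · exfalso
        push Not at h2
        have hχ'0 : χ' ≠ 0 := by
          rintro rfl
          exact hne (LinearMap.ext fun x => hex x rfl)
        obtain ⟨c, hc⟩ := dual_eq_smul_of_ker hχ'0 hex
        have hc0 : c ≠ 0 := by rintro rfl; exact hne (by simpa using hc)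
        have h4 : ψ + χ' ≠ 0 := by
          intro h4
          exact hne (LinearMap.ext fun x => h2 x (by simp [h4]))
        obtain ⟨d, hd⟩ := dual_eq_smul_of_ker h4 h2
        have h5 := congrArg (fun φ : Dual F V => φ v) hc
        have h6 := congrArg (fun φ : Dual F V => φ v) hd
        simp only [LinearMap.smul_apply, LinearMap.add_apply, smul_eq_mul, hψv, zero_add,
          hv2] at h5 h6
        have h7 : c = d := by
          have : χ' v ≠ 0 := fun h => by simp [h] at h5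
          exact mul_right_cancel₀ this (h5.symm.trans h6)
        subst h7
        rw [hc, smul_add] at hd
        exact hψ0 (by simpa [hc0] using hd)
  -- changing the vector
  have step2 : ∀ (s : F) a a' χ, Rat b F₀ a → Rat b F₀ a' → RatD b F₀ χ → χ a = 0 → χ a' = 0 →
      a ≠ 0 → HasT M a (s • χ) → HasT M a' (s • χ) := by
    intro s a a' χ ha ha' hχ h h' hne hT
    have aux : ∀ v, Rat b F₀ v → χ v = 0 → a ∉ F ∙ v → HasT M v (s • χ) := by
      intro v hv hχv hav
      obtain ⟨ψ, hψ, hψ1, hψ2⟩ := exists_ratD_of_notMem (ratSub_single hv.ratPt) ha hav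
      have hψv := hψ1 v (Submodule.mem_span_singleton_self v)
      have := (hM v ψ hv hψ hψv).comm hT hψv (by simp [h]) (by simp [hχv])
      simpa [hψ2] using this
    by_cases hex : a ∈ F ∙ a'
    · obtain ⟨v, hv, hχv, hva⟩ := exists_rat_ker_notMem hχ (F ∙ a) (by
        rw [finrank_span_singleton hne]; omega)
      obtain ⟨c, rfl⟩ := Submodule.mem_span_singleton.1 hex
      have hc : c ≠ 0 := by rintro rfl; simp at hne
      have h1 := aux v hv hχv (fun h => hva (by
        obtain ⟨t, ht⟩ := Submodule.mem_span_singleton.1 h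
        have ht0 : t ≠ 0 := by rintro rfl; exact hne (by simpa using ht.symm)
        exact Submodule.mem_span_singleton.2 ⟨t⁻¹, by rw [← ht]; simp [smul_smul, ht0]⟩))
      have h2 := aux (a' + v) (ha'.add hv) (by simp [h', hχv]) (fun h => hva (by
        obtain ⟨t, ht⟩ := Submodule.mem_span_singleton.1 h
        have ht0 : t ≠ 0 := by rintro rfl; exact hne (by simpa using ht.symm)
        refine Submodule.mem_span_singleton.2 ⟨t⁻¹ - c⁻¹, ?_⟩
        have : v = t⁻¹ • (c • a') - a' := by rw [← ht]; simp [smul_smul, ht0]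
        rw [this, sub_smul]
        simp [smul_smul, hc]))
      simpa using h2.sub_left h1 (by simp [hχv])
    · exact aux a' ha' h' hex
  let S : Subring F :=
    { carrier := {s | ∀ a χ, Rat b F₀ a → RatD b F₀ χ → χ a = 0 → HasT M a (s • χ)}
      zero_mem' := fun a χ _ _ _ => by simpa using hasT_zero_right a
      one_mem' := fun a χ ha hχ h => by simpa using hM a χ ha hχ h
      add_mem' := fun {s t} hs ht a χ ha hχ h => by
        rw [add_smul]; exact (hs a χ ha hχ h).add_right (ht a χ ha hχ h) (by simp [h])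
      neg_mem' := fun {s} hs a χ ha hχ h => by
        have e : (-s) • χ = -(s • χ) := by ext; simp
        rw [e]; exact (hs a χ ha hχ h).neg_right (by simp [h])
      mul_mem' := fun {s t} hs ht a χ ha hχ h => by
        by_cases ha0 : a = 0
        · rw [ha0]; exact hasT_zero_left _
        obtain ⟨v, hv, hχv, hva⟩ := exists_rat_ker_notMem hχ (F ∙ a) (by
          rw [finrank_span_singleton ha0]; omega)
        obtain ⟨ψ, hψ, hψ1, hψ2⟩ := exists_ratD_of_notMem (ratSub_single ha.ratPt) hv hva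
        have hψa := hψ1 a (Submodule.mem_span_singleton_self a)
        have := (hs a ψ ha hψ hψa).comm (ht v χ hv hχ hχv) (by simp [hψa]) (by simp [hχv])
          (by simp [h])
        simpa [hψ2, smul_smul] using this }
  have hall := subring_eq_top hr hcard S
    (fun c hc a χ ha hχ h => hM a _ ha (hχ.smul hc) (by simp [h])) (s := s₀)
    (fun a χ ha hχ h => by
      obtain ⟨ψ, hψ, hψ0, hψ1, hψ2⟩ := exists_ratD_pair hn ha₀.ratPt ha.ratPt
      exact step1 _ a ψ χ ha hψ hχ hψ2 h hψ0 (step2 _ a₀ a ψ ha₀ ha hψ hψ1 hψ2 ha0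
        (step1 _ a₀ χ₀ ψ ha₀ hχ₀ hψ h₀ hψ1 hχ0 hT))) hs₀
  refine SLV_le_of_basis b fun i j hij c => hall c _ _ (rat_basis i) (ratD_coord j) ?_
  simp [hij]

theorem le_ratNorm_of_level (hn : 4 ≤ Fintype.card ι)
    (hM : ∀ a χ, Rat b F₀ a → RatD b F₀ χ → χ a = 0 → HasT M a χ)
    (hI1 : ∀ a ψ, Rat b F₀ a → a ≠ 0 → ψ a = 0 → HasT M a ψ → RatD b F₀ ψ)
    (hI2 : ∀ u ψ, RatD b F₀ ψ → ψ ≠ 0 → ψ u = 0 → HasT M u ψ → Rat b F₀ u) :
    M ≤ ratNorm b F₀ := by
  have := Module.Finite.of_basis b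
  have := finite_of_basis b
  have A1 : ∀ u φ ψ, φ u = 0 → φ ≠ 0 → HasT M u φ → RatD b F₀ ψ → ψ ≠ 0 → ψ u = 0 →
      RatPt b F₀ u := by
    intro u φ ψ h hφ hT hψ hψ0 hψu
    by_cases hex : ∃ a, Rat b F₀ a ∧ ψ a = 0 ∧ φ a ≠ 0
    · obtain ⟨a, ha, h1, h2⟩ := hex
      have h3 := hT.comm (hM a ψ ha hψ h1) h h1 hψu
      rw [← hasT_smul_iff] at h3
      exact (hI2 _ ψ hψ hψ0 (by simp [hψu]) h3).ratPt.of_smul h2
    · push Not at hex
      obtain ⟨c, rfl⟩ := dual_eq_smul_of_ker (φ := φ) hψ0 fun x hx =>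
        hψ.ratSub_ker.le_of_rat (U := LinearMap.ker φ) (fun v hv hv' => hex v hv' hv) hx
      rw [← hasT_smul_iff] at hT
      exact (hI2 _ ψ hψ hψ0 (by simp [hψu]) hT).ratPt.of_smul (by rintro rfl; simp at hφ)
  have A2 : ∀ u φ a, φ u = 0 → φ ≠ 0 → HasT M u φ → Rat b F₀ a → a ≠ 0 → φ a = 0 →
      RatPt b F₀ u := by
    intro u φ a h hφ hT ha ha0 hφa
    by_cases hu : u ∈ F ∙ a
    · obtain ⟨c, rfl⟩ := Submodule.mem_span_singleton.1 hu
      exact ha.ratPt.smul c
    obtain ⟨χ, hχ, h1, h2⟩ := exists_ratD_of_notMem' (ratSub_single ha.ratPt) hu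
    have hχa := h1 a (Submodule.mem_span_singleton_self a)
    have h3 := (hM a χ ha hχ hχa).comm hT hχa h hφa
    exact A1 u φ _ h hφ hT (hI1 a _ ha ha0 (by simp [hφa]) h3) (smul_ne_zero h2 hφ) (by simp [h])
  have B : ∀ g ∈ M, ∀ a, Rat b F₀ a → a ≠ 0 → RatPt b F₀ (g a) → g ∈ ratNorm b F₀ := by
    rintro g hg a ha ha0 ⟨c, a', ha', e⟩
    have hga : g a ≠ 0 := by simpa using ha0
    have hc : c ≠ 0 := by rintro rfl; simp [e] at hga
    have ha'0 : a' ≠ 0 := by rintro rfl; simp [e] at hga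
    refine mem_ratNorm_of_maps (inv_ne_zero hc) fun v hv => ?_
    obtain ⟨χ, hχ, hχ0, h1, h2⟩ := exists_ratD_pair (by omega) ha.ratPt hv.ratPt
    have h3 := (hM a χ ha hχ h1).conj hg
    rw [e, hasT_smul_iff] at h3
    have h4 := hI1 a' _ ha' ha'0 (by
      rw [LinearMap.smul_apply, ← map_smul, ← e]
      simpa [le_inv_apply] using h1) h3
    have h5 := (hM v χ hv hχ h2).conj hg
    refine hI2 _ _ h4 (smul_ne_zero hc fun h => hχ0 (LinearMap.ext fun x => ?_)) ?_ ?_
    · simpa [le_inv_apply] using congrArg (fun φ : Dual F V => φ (g x)) h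
    · simp [h2]
    · rw [← hasT_smul_iff, smul_smul, mul_inv_cancel₀ hc, one_smul]; exact h5
  intro g hg
  obtain ⟨a, ha, -, ha0⟩ := exists_rat_ker_notMem (ratD_zero (b := b) (F₀ := F₀)) ⊥ (by
    rw [finrank_bot]; omega)
  rw [Submodule.mem_bot] at ha0
  obtain ⟨a', ha', -, haa⟩ := exists_rat_ker_notMem (ratD_zero (b := b) (F₀ := F₀)) (F ∙ a) (by
    rw [finrank_span_singleton ha0]; omega)
  have ha'0 : a' ≠ 0 := by rintro rfl; simp at haa
  obtain ⟨ψ, hψ, hψ0, hψa, hψa'⟩ := exists_ratD_pair (by omega) ha.ratPt ha'.ratPt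
  refine B g hg a ha ha0 ?_
  by_contra hu
  have hT := (hM a ψ ha hψ hψa).conj hg
  set u := g a
  set φ : Dual F V := ψ ∘ₗ (g⁻¹ : V ≃ₗ[F] V)
  have hφu : φ u = 0 := by simp [φ, u, hψa]
  have hφ0 : φ ≠ 0 := fun h => hψ0 (LinearMap.ext fun x => by
    simpa [φ, le_inv_apply] using congrArg (fun φ : Dual F V => φ (g x)) h)
  have hψu : ψ u ≠ 0 := fun h => hu (A1 u φ ψ hφu hφ0 hT hψ hψ0 h)
  have hφ : ∀ v, Rat b F₀ v → v ≠ 0 → φ v ≠ 0 := fun v hv hv0 h =>
    hu (A2 u φ v hφu hφ0 hT hv hv0 h)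
  obtain ⟨y, hy, ey⟩ := hT.elim
  have key : ∀ d, Rat b F₀ d → d ≠ 0 → ψ d = 0 → ∃ k ∈ M, (∃ c : F, c ≠ 0 ∧ k d = c • u) ∧
      ∀ z, ψ z = 0 → φ z = 0 → k z = z := by
    intro d hd hd0 hψd
    obtain ⟨x, hx, ex⟩ := (hM d ψ hd hψ hψd).elim
    obtain ⟨k, hk, hk'⟩ := exists_map_center (x := x) (y := y) (d := d) (u := u)
      (fun s t h => by
        have h1 := congrArg ψ h
        simp only [map_add, map_smul, hψd, smul_eq_mul, mul_zero, zero_add, map_zero,
          mul_eq_zero] at h1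
        have ht := h1.resolve_right hψu
        rw [ht, zero_smul, add_zero, smul_eq_zero] at h
        exact ⟨h.resolve_right hd0, ht⟩)
      (by rw [ex, hψd]; simp) (ex u) (by rw [ey, hφu]; simp) (ey d) hψu (hφ d hd hd0)
    exact ⟨k, closure_pair_le hx hy hk, hk', fun z h1 h2 =>
      closure_pair_fix (by rw [ex, h1]; simp) (by rw [ey, h2]; simp) hk⟩
  obtain ⟨k, hk, ⟨c, hc, ek⟩, hkz⟩ := key a ha ha0 hψa
  obtain ⟨k', hk', ⟨c', hc', ek'⟩, hkz'⟩ := key a' ha' ha'0 hψa'
  set h := k'⁻¹ * k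
  have hh : h a = (c / c') • a' := by
    apply k'.injective
    rw [le_mul_apply, le_apply_inv, map_smul, ek, ek', smul_smul, div_mul_cancel₀ _ hc']
  have hhM : h ∈ M := M.mul_mem (M.inv_mem hk') hk
  have hhN := B h hhM a ha ha0 (hh ▸ ha'.ratPt.smul _)
  have hφa := hφ a ha ha0
  have hlin : ∀ z, ψ z = 0 → h z = z + φ z • (φ a)⁻¹ • (h a - a) := by
    intro z hz
    have h1 : h (z - (φ z / φ a) • a) = z - (φ z / φ a) • a := by
      have e1 : ψ (z - (φ z / φ a) • a) = 0 := by simp [hz, hψa]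
      have e2 : φ (z - (φ z / φ a) • a) = 0 := by simp [hφa]
      apply k'.injective
      rw [le_mul_apply, le_apply_inv, hkz _ e1 e2, hkz' _ e1 e2]
    rw [map_sub, map_smul] at h1
    rw [smul_smul, ← div_eq_mul_inv]
    linear_combination (norm := module) h1
  obtain ⟨v, hv, hψv, hva⟩ := exists_rat_ker_notMem hψ (Submodule.span F {a, a'}) (by
    have := finrank_span_pair_le (F := F) a a'
    omega)
  have hv0 : v ≠ 0 := by rintro rfl; simp at hva
  refine generic_contra ha ha' hv haa ha0 hva (hlin a hψa) (hlin v hψv)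
    (hh ▸ Submodule.smul_mem _ _ (Submodule.mem_span_singleton_self a'))
    (hv.ratPt.apply hhN) ((ha.add hv).ratPt.apply hhN) (fun t ht => hφ _ (ha.add (hv.smul ht)) ?_)
    (hφ v hv hv0)
  intro h0
  by_cases ht0 : t = 0
  · exact ha0 (by simpa [ht0] using h0)
  apply hva
  have : v = -(t⁻¹ • a) := by
    rw [eq_neg_of_add_eq_zero_left h0]; simp [smul_smul, ht0]
  rw [this]
  exact Submodule.neg_mem _ (Submodule.smul_mem _ _ (Submodule.subset_span (by simp)))

theorem isMaximalIn_ratNorm_SLV (hn : 4 ≤ Fintype.card ι) {r : ℕ} (hr : r.Prime)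
    (hcard : Fintype.card F = Nat.card F₀ ^ r) :
    Geo.IsMaximalIn (SLV F V) (ratNorm b F₀ ⊓ SLV F V) := by
  have := Module.Finite.of_basis b
  refine isMaximalIn_of inf_le_right (fun h => ?_) fun M h1 h2 hex => ?_
  · obtain ⟨s, hs⟩ := exists_notMem_of_card hr hcard
    obtain ⟨a, ha, -, ha0⟩ := exists_rat_ker_notMem (ratD_zero (b := b) (F₀ := F₀)) ⊥ (by
      rw [finrank_bot]; omega)
    rw [Submodule.mem_bot] at ha0
    obtain ⟨v, hv, -, hva⟩ := exists_rat_ker_notMem (ratD_zero (b := b) (F₀ := F₀)) (F ∙ a) (by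
      rw [finrank_span_singleton ha0]; omega)
    obtain ⟨χ, hχ, h1, h2⟩ := exists_ratD_of_notMem (ratSub_single ha.ratPt) hv hva
    obtain ⟨g, hg, e⟩ := (hasT_SLV (u := a) (φ := s • χ)
      (by simp [h1 a (Submodule.mem_span_singleton_self a)])).elim
    have := hv.ratPt.apply (h hg).1
    rw [e] at this
    exact not_ratPt_add_smul ha hv ha0 hva hs (by simpa [h2] using this)
  have hM : ∀ a χ, Rat b F₀ a → RatD b F₀ χ → χ a = 0 → HasT M a χ :=
    fun a χ ha hχ h => (hasT_ratNorm ha hχ h).mono h1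
  by_contra hSL
  obtain ⟨g, hg, hg'⟩ := hex
  refine hg' ⟨le_ratNorm_of_level hn hM ?_ ?_ hg, h2 hg⟩
  · intro a ψ ha ha0 hψa hT v hv
    by_contra hs
    obtain ⟨χ, hχ, hχ0, h3, h4⟩ := exists_ratD_pair (by omega) ha.ratPt hv.ratPt
    exact hSL (SLV_le_of_level (by omega) hr hcard hM ha hχ h3 ha0 hχ0 hs
      (hT.comm (hM v χ hv hχ h4) hψa h4 h3))
  · intro u ψ hψ hψ0 hψu hT
    by_contra hu
    obtain ⟨χ, hχ, hs⟩ := exists_ratD_notMem hu
    obtain ⟨a, ha, ha0, h3, h4⟩ := exists_rat_ker_pair (by omega) hχ hψ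
    exact hSL (SLV_le_of_level (by omega) hr hcard hM ha hψ h4 ha0 hψ0 hs
      ((hM a χ ha hχ h3).comm hT h3 hψu h4))

/-- Subfield subgroups of prime index are maximal in `SL_n(F)`, `n ≥ 4`. -/
theorem isMaximalIn_subfield_SL {κ : Type} [Fintype κ] [DecidableEq κ] (hn : 4 ≤ Fintype.card κ)
    (F₀ : Subfield F) {r : ℕ} (hr : r.Prime) (hcard : Fintype.card F = Nat.card F₀ ^ r)
    (P : Matrix.GeneralLinearGroup κ F) :
    Geo.IsMaximalIn (Geo.specialLinear κ F) (Geo.subfieldSubgroup F₀ P ⊓ Geo.specialLinear κ F) := by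
  rw [subfieldSubgroup_eq, specialLinear_eq, ← pull_inf]
  exact isMaximalIn_pull (isMaximalIn_ratNorm_SLV hn hr hcard)

end H11.Sub
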