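import Mathlib
import Cfsg.Agent.Base
import Cfsg.Agent.Lib.Subfld.SL
import Cfsg.Agent.Lib.ClassMax.C1

/-!
Rational structures on a space with pseudo-quadratic data: basic geometry, and the criterion for an
overgroup of the rational Eichler group to contain the whole Eichler group.
-/

set_option autoImplicit false
set_option linter.unusedSectionVars false

namespace H11.Sub

open Module Cfsg H97 H28

variable {F V : Type*} [Field F] [AddCommGroup V] [Module F V] {σ : F →+* F} {ι : Type*}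
  [Fintype ι]

/-- The rational structure carries the pseudo-quadratic data. -/
structure RatPQ (P : PQ F V σ) (b : Basis ι F V) (F₀ : Subfield F) : Prop where
  nd : P.B.SeparatingLeft
  σ_mem : ∀ a ∈ F₀, σ a ∈ F₀
  B_mem : ∀ x y, Rat b F₀ x → Rat b F₀ y → P.B x y ∈ F₀
  q_mem : ∀ x, Rat b F₀ x → ∃ c ∈ F₀, c - P.q x ∈ P.Λ

/-- A non-zero rational singular vector. -/
structure RS (P : PQ F V σ) (b : Basis ι F V) (F₀ : Subfield F) (d : V) : Prop where
  rat : Rat b F₀ d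
  ne : d ≠ 0
  sing : P.q d ∈ P.Λ

/-- Every rational subspace of dimension at least `k` has a rational singular vector. -/
def RIso (P : PQ F V σ) (b : Basis ι F V) (F₀ : Subfield F) (k : ℕ) : Prop :=
  ∀ X : Submodule F V, RatSub b F₀ X → k ≤ finrank F X → ∃ x ∈ X, RS P b F₀ x

/-- The stabiliser of the set of rational vectors. -/
def ratStab (b : Basis ι F V) (F₀ : Subfield F) : Subgroup (V ≃ₗ[F] V) where
  carrier := {g | ∀ x, Rat b F₀ x ↔ Rat b F₀ (g x)}
  one_mem' _ := Iff.rfl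
  mul_mem' {g h} hg hh x := (hh x).trans (hg (h x))
  inv_mem' {g} hg x := by rw [hg (g⁻¹ x), le_apply_inv]

/-- `w` is the vector part of an element of `M ∩ X_d`. -/
def InA (P : PQ F V σ) (M : Subgroup (V ≃ₗ[F] V)) (d w : V) : Prop :=
  P.B d w = 0 ∧ ∃ c, c - P.q w ∈ P.Λ ∧ Has M (eu P d w c)

variable {P : PQ F V σ} {b : Basis ι F V} {F₀ : Subfield F} {M : Subgroup (V ≃ₗ[F] V)}
  [FiniteDimensional F V]

theorem ratStab_le_ratNorm : ratStab b F₀ ≤ ratNorm b F₀ := fun _ hg =>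
  ⟨1, one_ne_zero, fun x => by rw [one_smul]; exact hg x⟩

theorem eps_mem (P : PQ F V σ) (F₀ : Subfield F) : P.ε ∈ F₀ := by
  rcases mul_self_eq_one_iff.1 P.εε with h | h <;> rw [h]
  · exact F₀.one_mem
  · exact F₀.neg_mem F₀.one_mem

theorem σ_ne_zero {a : F} (ha : a ≠ 0) : σ a ≠ 0 := by simpa using ha

theorem RS.self {d : V} (h : RS P b F₀ d) : P.B d d = 0 := P.self_eq_zero h.sing

theorem RS.smul {d : V} (h : RS P b F₀ d) {c : F} (hc : c ∈ F₀) (h0 : c ≠ 0) : RS P b F₀ (c • d) :=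
  ⟨h.rat.smul hc, smul_ne_zero h0 h.ne, P.q_smul_mem h.sing c⟩

theorem sing_add_smul {x y : V} (hx : P.q x ∈ P.Λ) (hy : P.q y ∈ P.Λ) (h : P.B x y = 0) (s t : F) :
    P.q (s • x + t • y) ∈ P.Λ :=
  sing_add (P.q_smul_mem hx s) (P.q_smul_mem hy t) (by simp [h])

theorem InA.perp {d w : V} (h : InA P M d w) : P.B d w = 0 := h.1

theorem inA_zero (d : V) : InA P M d 0 :=
  ⟨by simp, 0, by simpa using P.q_zero, has_id.congr fun x => (eu_zero d x).symm⟩

theorem InA.add {d w w' : V} (hd : P.q d ∈ P.Λ) (h : InA P M d w) (h' : InA P M d w') :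
    InA P M d (w + w') := by
  obtain ⟨h1, c, hc, h2⟩ := h
  obtain ⟨h1', c', hc', h2'⟩ := h'
  exact ⟨by simp [h1, h1'], _, valid_add hc hc', has_eu_add hd h1 h1' h2 h2'⟩

theorem InA.neg {d w : V} (hd : P.q d ∈ P.Λ) (h : InA P M d w) : InA P M d (-w) := by
  obtain ⟨h1, c, hc, h2⟩ := h
  exact ⟨by simp [h1], _, valid_neg hc, has_eu_neg hd h1 h2⟩

theorem InA.sub {d w w' : V} (hd : P.q d ∈ P.Λ) (h : InA P M d w) (h' : InA P M d w') :
    InA P M d (w - w') := by
  rw [sub_eq_add_neg]; exact h.add hd (h'.neg hd)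

theorem inA_self {d : V} (hd : P.q d ∈ P.Λ) (t : F) : InA P M d (t • d) := by
  refine ⟨by simp [P.self_eq_zero hd], -(t - P.ε * σ t), ?_, has_id.congr fun x => ?_⟩
  · exact P.Λ.sub_mem (P.Λ.neg_mem (P.sub_mem t)) (P.q_smul_mem hd t)
  · have := eu_add_smul (P := P) d 0 t (-(t - P.ε * σ t)) x
    rw [zero_add] at this
    rw [this]
    simp [eu_zero]

theorem InA.add_smul {d w : V} (hd : P.q d ∈ P.Λ) (h : InA P M d w) (t : F) :
    InA P M d (w + t • d) := h.add hd (inA_self hd t)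

theorem InA.conj (hMI : M ≤ P.Isom) {d w : V} (h : InA P M d w) {g : V ≃ₗ[F] V} (hg : g ∈ M) :
    InA P M (g d) (g w) := by
  obtain ⟨h1, c, hc, h2⟩ := h
  exact ⟨by rw [(hMI hg).1, h1], c, isom_valid (hMI hg) hc, has_eu_conj h2 hg (hMI hg)⟩

theorem InA.of_smul {d w : V} {a : F} (ha : a ≠ 0) (h : InA P M (a • d) w) :
    InA P M d (σ a • w) := by
  obtain ⟨h1, c, hc, h2⟩ := h
  rw [B_smul_left, mul_eq_zero] at h1
  exact ⟨by simp [h1.resolve_left (σ_ne_zero ha)], _, valid_smul' a hc,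
    h2.congr fun x => eu_smul a d w c x⟩

theorem InA.fix (hMI : M ≤ P.Isom) {d w : V} (hd : P.q d ∈ P.Λ) (h : InA P M d w)
    {g : V ≃ₗ[F] V} (hg : g ∈ M) (hgd : g d = d) : InA P M d (g w - w) := by
  have := h.conj hMI hg
  rw [hgd] at this
  exact this.sub hd h

theorem has_eu_sub_same {d w : V} {c c' : F} (hd : P.q d ∈ P.Λ) (hw : P.B d w = 0)
    (h : Has M (eu P d w c)) (h' : Has M (eu P d w c')) : Has M (eu P d 0 (c - c')) := by
  have := has_eu_add hd hw (by simp [hw]) h (has_eu_neg hd hw h')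
  have e1 : w + -w = 0 := by simp
  have e2 : c + (P.B w w - c') + P.B w (-w) = c - c' := by rw [map_neg]; ring
  rwa [e1, e2] at this

namespace RatPQ

variable (h : RatPQ P b F₀)
include h

theorem ratD {w : V} (hw : Rat b F₀ w) : RatD b F₀ (P.B w) := fun x hx => h.B_mem w x hw hx

theorem eq_zero_of_rat {x : V} (hx : ∀ v, Rat b F₀ v → P.B v x = 0) : x = 0 := by
  refine h.nd x fun y => P.eq_zero_symm ?_
  rw [← b.sum_repr y, map_sum, LinearMap.sum_apply]
  exact Finset.sum_eq_zero fun i _ => by rw [B_smul_left, hx _ (rat_basis _), mul_zero]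

theorem rat_of_B {x : V} (hx : ∀ v, Rat b F₀ v → P.B v x ∈ F₀) : Rat b F₀ x := by
  obtain ⟨f, hf⟩ := exists_proj_one F₀
  have : proj b f x - x = 0 := h.eq_zero_of_rat fun v hv => by
    rw [map_sub, (h.ratD hv).proj, proj_of_mem f (hx v hv), hf]; simp
  rw [← sub_eq_zero.1 this]
  exact rat_proj f x

theorem rat_eu {d w x : V} {c : F} (hd : Rat b F₀ d) (hw : Rat b F₀ w) (hc : c ∈ F₀)
    (hx : Rat b F₀ x) : Rat b F₀ (eu P d w c x) := by
  rw [eu_apply]
  have hε := eps_mem P F₀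
  exact (hx.add (hd.smul (F₀.sub_mem (h.B_mem _ _ hw hx)
    (F₀.mul_mem (F₀.mul_mem hε hc) (h.B_mem _ _ hd hx))))).sub
    (hw.smul (F₀.mul_mem hε (h.B_mem _ _ hd hx)))

variable [Fintype F]

theorem ratSub_perp {W : Submodule F V} (hW : RatSub b F₀ W) : RatSub b F₀ (perp P W) := by
  intro f x hx u hu
  have : W ≤ perp P (F ∙ proj b f x) := hW.le_of_rat fun v hv hv' => by
    rw [mem_perp_singleton]
    apply P.eq_zero_symm
    rw [(h.ratD hv').proj, hx v hv]; simp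
  exact P.eq_zero_symm (mem_perp_singleton.1 (this hu))

/-- A rational vector perpendicular to `H` with product one against `u ∉ H`. -/
theorem exists_rat_B {H : Submodule F V} (hH : RatSub b F₀ H) {u : V} (hu : Rat b F₀ u)
    (huH : u ∉ H) : ∃ v, Rat b F₀ v ∧ v ∈ perp P H ∧ P.B u v = 1 := by
  obtain ⟨w, h1, h2⟩ := exists_orth_of_notMem P.σσ P.B h.nd H huH
  obtain ⟨v, hv, hv1, hv2⟩ := (h.ratSub_perp hH).exists_rat_apply_eq_one (h.ratD hu)
    (x := w) (mem_perp'.2 h1) (B_ne_zero_symm (by rw [h2]; exact one_ne_zero))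
  exact ⟨v, hv1, hv, hv2⟩

/-- A rational vector perpendicular to `H` and not to `u ∉ H`. -/
theorem exists_rat_B_ne {H : Submodule F V} (hH : RatSub b F₀ H) {u : V}
    (huH : u ∉ H) : ∃ v, Rat b F₀ v ∧ v ∈ perp P H ∧ P.B u v ≠ 0 := by
  by_contra hc
  push Not at hc
  apply huH
  rw [← perp_perp h.nd H]
  intro x hx
  exact P.eq_zero_symm ((h.ratSub_perp hH).le_of_rat (U := LinearMap.ker (P.B u))
    (fun v hv hv' => hc v hv' hv) hx)

theorem exists_partner {H : Submodule F V} (hH : RatSub b F₀ H) {d : V} (hd : RS P b F₀ d)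
    (hdH : d ∉ H) (hdH' : d ∈ perp P H) :
    ∃ e, RS P b F₀ e ∧ P.B e d = 1 ∧ e ∈ perp P H := by
  obtain ⟨v, hv, hvH, hv1⟩ := h.exists_rat_B hH hd.rat hdH
  have hw : Rat b F₀ (P.ε • v) := hv.smul (eps_mem P F₀)
  have hwd : P.B (P.ε • v) d = 1 := by
    rw [B_smul_left, P.symm, hv1, P.σε, map_one, mul_one, P.εε]
  obtain ⟨c, hc, hc'⟩ := h.q_mem _ hw
  have h1 : P.B (P.ε • v + (-c) • d) d = 1 := by
    rw [map_add, LinearMap.add_apply, hwd, B_smul_left, hd.self]; simp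
  refine ⟨P.ε • v + (-c) • d, ⟨hw.add (hd.rat.smul (F₀.neg_mem hc)), fun h0 => ?_, ?_⟩, h1,
    (perp P H).add_mem ((perp P H).smul_mem _ hvH) ((perp P H).smul_mem _ hdH')⟩
  · rw [h0] at h1; simp at h1
  · have := P.Λ.sub_mem (P.Λ.add_mem (P.q_add_smul (P.ε • v) d (-c)) (P.norm_mem (-c) _ hd.sing)) hc'
    convert this using 1
    rw [hwd]; ring

theorem has_eu_rat {d w : V} {c : F} (hd : RS P b F₀ d) (hw : Rat b F₀ w) (hdw : P.B d w = 0)
    (hc : c ∈ F₀) (hc' : c - P.q w ∈ P.Λ) : Has (ratStab b F₀ ⊓ EG P) (eu P d w c) := by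
  have := finite_of_basis b
  obtain ⟨g, hg, e⟩ := has_eu_EG hd.sing hdw hc'
  refine ⟨g, ⟨fun x => ⟨fun hx => by rw [e]; exact h.rat_eu hd.rat hw hc hx, fun hx => ?_⟩, hg⟩, e⟩
  let k : {x // Rat b F₀ x} → {x // Rat b F₀ x} := fun y =>
    ⟨g y.1, by rw [e]; exact h.rat_eu hd.rat hw hc y.2⟩
  have hk : Function.Injective k := fun y z e => Subtype.ext (g.injective (congrArg Subtype.val e))
  obtain ⟨y, hy⟩ := Finite.surjective_of_injective hk ⟨_, hx⟩
  rw [← g.injective (congrArg Subtype.val hy)]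
  exact y.2

theorem inA_rat (hM : ratStab b F₀ ⊓ EG P ≤ M) {d w : V} (hd : RS P b F₀ d) (hw : Rat b F₀ w)
    (hdw : P.B d w = 0) : InA P M d w := by
  obtain ⟨c, hc, hc'⟩ := h.q_mem w hw
  exact ⟨hdw, c, hc', (h.has_eu_rat hd hw hdw hc hc').mono hM⟩

/-- The rational singular vectors not perpendicular to `a`, and `a`, span the rational vectors. -/
theorem mem_of_sing {H : Submodule F V} (hH : RatSub b F₀ H) {a : V} (ha : RS P b F₀ a)
    (haH : a ∉ H) (haH' : a ∈ perp P H) {T : V → Prop} (hadd : ∀ x y, T x → T y → T (x + y))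
    (hsmul : ∀ c ∈ F₀, ∀ x, T x → T (c • x)) (hTa : T a)
    (hT : ∀ y, RS P b F₀ y → y ∈ perp P H → P.B y a ≠ 0 → T y) {w : V} (hw : Rat b F₀ w)
    (hwH : w ∈ perp P H) : T w := by
  obtain ⟨e, he, hea, heH⟩ := h.exists_partner hH ha haH haH'
  have hae : P.B a e = P.ε := by rw [P.symm, hea]; simp
  have hε := eps_mem P F₀
  have hεε := P.εε
  have hTe : T e := hT e he heH (by simp [hea])
  have hβ : P.ε * P.B a w ∈ F₀ := F₀.mul_mem hε (h.B_mem _ _ ha.rat hw)
  set w₀ := w - (P.ε * P.B a w) • e with hw₀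
  have hw0 : Rat b F₀ w₀ := hw.sub (he.rat.smul hβ)
  have haw0 : P.B a w₀ = 0 := by
    simp only [hw₀, map_sub, map_smul, hae, smul_eq_mul]
    linear_combination (-P.B a w) * hεε
  have hw0H : w₀ ∈ perp P H := (perp P H).sub_mem hwH ((perp P H).smul_mem _ heH)
  obtain ⟨c, hc, hc'⟩ := h.q_mem w₀ hw0
  have hy : eu P a w₀ c e = e + (P.B w₀ e - c) • a - w₀ := by
    rw [eu_apply, hae, hεε, one_smul]
    congr 3
    linear_combination (-c) * hεε
  have hya : P.B (eu P a w₀ c e) a = 1 := by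
    rw [hy]; simp [hea, ha.self, P.eq_zero_symm haw0]
  have hTy : T (eu P a w₀ c e) := by
    refine hT _ ⟨h.rat_eu ha.rat hw0 hc he.rat, fun h0 => ?_, ?_⟩ ?_ (by simp [hya])
    · rw [h0] at hya; simp at hya
    · simpa using P.Λ.add_mem (eu_q ha.sing haw0 hc' e) he.sing
    · rw [hy]
      exact (perp P H).sub_mem ((perp P H).add_mem heH ((perp P H).smul_mem _ haH')) hw0H
  have e1 : w = ((-1 : F) • eu P a w₀ c e + (P.B w₀ e - c) • a) + (1 + P.ε * P.B a w) • e := by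
    rw [hy, hw₀]; module
  rw [e1]
  exact hadd _ _ (hadd _ _ (hsmul _ (F₀.neg_mem F₀.one_mem) _ hTy)
    (hsmul _ (F₀.sub_mem (h.B_mem _ _ hw0 he.rat) hc) _ hTa))
    (hsmul _ (F₀.add_mem F₀.one_mem hβ) _ hTe)

end RatPQ

theorem notMem_span_hyp {d e a : V} (hd : P.B d d = 0) (he : P.B e e = 0) (hed : P.B e d = 1)
    (hda : P.B d a = 0) (hea : P.B e a = 0) (ha : a ≠ 0) : a ∉ Submodule.span F {d, e} := by
  intro hh
  obtain ⟨s, t, rfl⟩ := Submodule.mem_span_pair.1 hh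
  have hde : P.B d e = P.ε := by rw [P.symm, hed]; simp
  simp only [map_add, map_smul, hd, he, hed, hde, smul_eq_mul, mul_zero, zero_add, add_zero,
    mul_one, mul_eq_zero] at hda hea
  rw [hea, hda.resolve_right P.ε_ne_zero] at ha
  simp at ha

theorem mem_perp_pair {x y z : V} :
    z ∈ perp P (Submodule.span F {x, y}) ↔ P.B x z = 0 ∧ P.B y z = 0 := by
  rw [mem_perp_span]; simp

theorem mem_perp_triple {x y w z : V} :
    z ∈ perp P (Submodule.span F {x, y, w}) ↔ P.B x z = 0 ∧ P.B y z = 0 ∧ P.B w z = 0 := by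
  rw [mem_perp_span]; simp

theorem ratSub_triple {x y z : V} (hx : RatPt b F₀ x) (hy : RatPt b F₀ y) (hz : RatPt b F₀ z) :
    RatSub b F₀ (Submodule.span F {x, y, z}) := ratSub_span (by
  rintro w (rfl | rfl | rfl)
  exacts [hx, hy, hz])

variable [Fintype F] {k : ℕ}

theorem RIso.exists_notMem (hk : RIso P b F₀ k) (m : ℕ) : ∀ {X U : Submodule F V},
    RatSub b F₀ X → RatSub b F₀ U → finrank F U ≤ m → m + k ≤ finrank F X →
    ∃ x ∈ X, x ∉ U ∧ RS P b F₀ x := by
  induction m with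
  | zero =>
    intro X U hX _ hU hn
    obtain ⟨x, hx, hx'⟩ := hk X hX (by omega)
    rw [Nat.le_zero, Submodule.finrank_eq_zero] at hU
    exact ⟨x, hx, by simpa [hU] using hx'.ne, hx'⟩
  | succ m ih =>
    intro X U hX hU hUm hn
    by_cases h0 : finrank F U ≤ m
    · exact ih hX hU h0 (by omega)
    obtain ⟨u, hu, hu1, hu2⟩ := hU.exists_rat_notMem (U := ⊥) (fun hh => by
      have := Submodule.finrank_mono hh
      rw [finrank_bot] at this
      omega)
    obtain ⟨φ, hφ, -, hφu⟩ := exists_ratD_of_notMem (W := ⊥)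
      (fun f x hx => by rw [Submodule.mem_bot] at hx ⊢; rw [hx, proj_zero]) hu1 hu2
    have h1 := finrank_inf_ker' X φ
    have h2 : finrank F ↥(U ⊓ LinearMap.ker φ) < finrank F U :=
      Submodule.finrank_lt_finrank_of_lt (lt_of_le_of_ne inf_le_left fun hh => by
        have : u ∈ U ⊓ LinearMap.ker φ := hh.symm ▸ hu
        simpa [hφu] using this.2)
    obtain ⟨x, hx, hxU, hx'⟩ := ih (hX.inf hφ.ratSub_ker) (hU.inf hφ.ratSub_ker) (by omega)
      (by omega)
    exact ⟨x, hx.1, fun hh => hxU ⟨hh, hx.2⟩, hx'⟩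

namespace RatPQ

variable (h : RatPQ P b F₀)
include h

theorem finrank_perp_pair (x y : V) :
    Fintype.card ι ≤ finrank F (perp P (Submodule.span F {x, y})) + 2 := by
  have h1 := finrank_le_perp (P := P) (Submodule.span F {x, y})
  have h2 := finrank_span_pair_le (F := F) x y
  rw [finrank_eq_card_basis b] at h1
  omega

theorem exists_rs_perp (hk : RIso P b F₀ k) (hn : k + 2 ≤ Fintype.card ι) {x y : V}
    (hx : RatPt b F₀ x) (hy : RatPt b F₀ y) : ∃ a, RS P b F₀ a ∧ P.B x a = 0 ∧ P.B y a = 0 := by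
  have := h.finrank_perp_pair x y
  obtain ⟨a, ha, ha'⟩ := hk _ (h.ratSub_perp (ratSub_pair hx hy)) (by omega)
  exact ⟨a, ha', mem_perp_pair.1 ha⟩

theorem exists_rs_perp_notMem (hk : RIso P b F₀ k) (hn : k + 4 ≤ Fintype.card ι) {x y : V}
    (hx : RatPt b F₀ x) (hy : RatPt b F₀ y) :
    ∃ a, RS P b F₀ a ∧ P.B x a = 0 ∧ P.B y a = 0 ∧ a ∉ Submodule.span F {x, y} := by
  have := h.finrank_perp_pair x y
  obtain ⟨a, ha, ha1, ha'⟩ := hk.exists_notMem 2 (h.ratSub_perp (ratSub_pair hx hy))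
    (ratSub_pair hx hy) (finrank_span_pair_le x y) (by omega)
  exact ⟨a, ha', (mem_perp_pair.1 ha).1, (mem_perp_pair.1 ha).2, ha1⟩

/-- An automorphism mapping rational singular vectors to rational points normalises the rational
structure. -/
theorem mem_ratNorm_of_sing (hk : RIso P b F₀ k) (hn : k + 2 ≤ Fintype.card ι) {g : V ≃ₗ[F] V}
    (hg : ∀ d, RS P b F₀ d → RatPt b F₀ (g d)) : g ∈ ratNorm b F₀ := by
  have := finite_of_basis b
  obtain ⟨d₀, hd₀, -⟩ := h.exists_rs_perp hk hn rat_zero.ratPt rat_zero.ratPt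
  obtain ⟨c, v, hv, e⟩ := hg d₀ hd₀
  have hc : c ≠ 0 := by
    rintro rfl
    exact hd₀.ne (g.injective (by simpa using e))
  have h0 : Rat b F₀ (c⁻¹ • g d₀) := by rw [e]; simpa [smul_smul, hc] using hv
  have step : ∀ d d', RS P b F₀ d → RS P b F₀ d' → P.B d d' = 0 → Rat b F₀ (c⁻¹ • g d) →
      Rat b F₀ (c⁻¹ • g d') := by
    intro d d' hd hd' hdd h1
    by_cases hm : d' ∈ F ∙ d
    · obtain ⟨t, rfl⟩ := Submodule.mem_span_singleton.1 hm
      rw [map_smul, smul_comm]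
      exact h1.smul (mem_of_rat_smul hd.rat hd.ne hd'.rat)
    · refine rat_smul_of_sum hm (inv_ne_zero hc) h1 hd.ne (hg d' hd')
        (hg _ ⟨hd.rat.add hd'.rat, fun h0 => hm ?_, sing_add hd.sing hd'.sing hdd⟩)
      rw [eq_neg_of_add_eq_zero_right h0]
      exact Submodule.neg_mem _ (Submodule.mem_span_singleton_self d)
  refine mem_ratNorm_of_maps (inv_ne_zero hc) fun w hw => ?_
  refine h.mem_of_sing (H := ⊥) (fun f x hx => by rw [Submodule.mem_bot] at hx ⊢; rw [hx, proj_zero])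
    hd₀ (by simpa using hd₀.ne) (fun u hu => by rw [Submodule.mem_bot] at hu; simp [hu])
    (T := fun w => Rat b F₀ (c⁻¹ • g w)) (fun x y hx hy => by simpa using hx.add hy)
    (fun t ht x hx => by rw [map_smul, smul_comm]; exact hx.smul ht) h0 (fun y hy _ _ => ?_) hw
    (fun u hu => by rw [Submodule.mem_bot] at hu; simp [hu])
  obtain ⟨a, ha, h1, h2⟩ := h.exists_rs_perp hk hn hd₀.rat.ratPt hy.rat.ratPt
  exact step a y ha hy (P.eq_zero_symm h2) (step d₀ a hd₀ ha h1 h0)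

theorem exists_map_of_eq {e x z : V} (he : RS P b F₀ e) (hx : RS P b F₀ x) (hy' : RS P b F₀ z)
    (hex : P.B e x ≠ 0) (hB : P.B e x = P.B e z) : ∃ g ∈ ratStab b F₀ ⊓ EG P, g x = z := by
  have hq : P.q x - P.q z ∈ P.Λ := P.Λ.sub_mem hx.sing hy'.sing
  set β := P.B e x with hβ
  have hε := P.ε_ne_zero
  have hεε := P.εε
  have hβ0 : (P.ε * β)⁻¹ ∈ F₀ := F₀.inv_mem (F₀.mul_mem (eps_mem P F₀) (h.B_mem _ _ he.rat hx.rat))
  set w := (P.ε * β)⁻¹ • (x - z) with hw
  have hwr : Rat b F₀ w := (hx.rat.sub hy'.rat).smul hβ0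
  have hdw : P.B e w = 0 := by simp [hw, ← hβ, ← hB]
  have hval : P.B w x * (P.ε * β)⁻¹ - P.q w ∈ P.Λ := by
    have h1 := eu_q he.sing hdw (c := P.q w) (by simp) x
    have h2 : eu P e w (P.q w) x = z + (P.B w x - P.ε * P.q w * β) • e := by
      rw [eu_apply, ← hβ, hw, smul_smul, mul_inv_cancel₀ (mul_ne_zero hε hex)]; module
    rw [h2] at h1
    set s := P.B w x - P.ε * P.q w * β with hs
    have h3 := P.q_add_smul z e s
    have h4 := P.norm_mem s _ he.sing
    have h5 : s * P.B z e ∈ P.Λ := by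
      have := P.Λ.sub_mem (P.Λ.sub_mem (P.Λ.add_mem h1 hq) h3) h4
      convert this using 1; ring
    have h6 := P.norm_mem β⁻¹ _ h5
    rw [P.symm e z, ← hB] at h6
    have hσ : σ β ≠ 0 := by simpa using hex
    convert h6 using 1
    rw [hs, map_inv₀]
    field_simp
    linear_combination (P.q w * β * P.ε - P.B w x) * hεε
  obtain ⟨g, hg, eg⟩ := h.has_eu_rat he hwr hdw (F₀.mul_mem (h.B_mem _ _ hwr hx.rat) hβ0) hval
  refine ⟨g, hg, ?_⟩
  rw [eg, eu_apply, ← hβ]
  have : P.B w x - P.ε * (P.B w x * (P.ε * β)⁻¹) * β = 0 := by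
    field_simp; ring
  rw [this, hw, smul_smul, mul_inv_cancel₀ (mul_ne_zero hε hex)]; module

theorem exists_map_of_ne {e x y : V} (he : RS P b F₀ e) (hx : RS P b F₀ x) (hy : RS P b F₀ y)
    (hex : P.B e x ≠ 0) (hey : P.B e y ≠ 0) :
    ∃ g ∈ ratStab b F₀ ⊓ EG P, ∃ t ∈ F₀, t ≠ 0 ∧ g x = t • y := by
  have ht : P.B e x / P.B e y ∈ F₀ :=
    F₀.div_mem (h.B_mem _ _ he.rat hx.rat) (h.B_mem _ _ he.rat hy.rat)
  have ht0 := div_ne_zero hex hey
  obtain ⟨g, hg, e⟩ := h.exists_map_of_eq he hx (hy.smul ht ht0) hex (by simp [hey])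
  exact ⟨g, hg, _, ht, ht0, e⟩

theorem exists_map_of_perp {x y : V} (hx : RS P b F₀ x) (hy : RS P b F₀ y) (hxy : P.B x y = 0) :
    ∃ g ∈ ratStab b F₀ ⊓ EG P, ∃ t ∈ F₀, t ≠ 0 ∧ g x = t • y := by
  have hbot : RatSub b F₀ (⊥ : Submodule F V) :=
    fun f x hx => by rw [Submodule.mem_bot] at hx ⊢; rw [hx, proj_zero]
  have hp : ∀ z, z ∈ perp P (⊥ : Submodule F V) :=
    fun z u hu => by rw [Submodule.mem_bot] at hu; simp [hu]
  obtain ⟨e, he, hex, -⟩ := h.exists_partner hbot hx (by simpa using hx.ne) (hp _)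
  obtain ⟨f, hf, hfy, -⟩ := h.exists_partner hbot hy (by simpa using hy.ne) (hp _)
  by_cases h1 : P.B e y = 0
  swap
  · exact h.exists_map_of_ne he hx hy (by simp [hex]) h1
  by_cases h2 : P.B f x = 0
  swap
  · exact h.exists_map_of_ne hf hx hy h2 (by simp [hfy])
  obtain ⟨c, hc, hc'⟩ := h.q_mem _ (he.rat.add hf.rat)
  have h3 : P.B (e + f + (-c) • x) x = 1 := by
    rw [map_add, LinearMap.add_apply, B_smul_left, hx.self]; simp [hex, h2]
  have h4 : P.B (e + f + (-c) • x) y = 1 := by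
    rw [map_add, LinearMap.add_apply, B_smul_left, hxy]; simp [hfy, h1]
  refine h.exists_map_of_ne (e := e + f + (-c) • x)
    ⟨(he.rat.add hf.rat).add (hx.rat.smul (F₀.neg_mem hc)), fun h0 => ?_, ?_⟩ hx hy
    (by simp only [h3]; exact one_ne_zero) (by simp only [h4]; exact one_ne_zero)
  · rw [h0] at h3; simp at h3
  · have := P.Λ.sub_mem (P.Λ.add_mem (P.q_add_smul (e + f) x (-c)) (P.norm_mem (-c) _ hx.sing)) hc'
    convert this using 1
    rw [map_add, LinearMap.add_apply, hex, h2]; ring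

/-- The rational Eichler group is transitive on rational singular points. -/
theorem exists_map (hk : RIso P b F₀ k) (hn : k + 2 ≤ Fintype.card ι) {x y : V}
    (hx : RS P b F₀ x) (hy : RS P b F₀ y) :
    ∃ g ∈ ratStab b F₀ ⊓ EG P, ∃ t ∈ F₀, t ≠ 0 ∧ g x = t • y := by
  obtain ⟨a, ha, h1, h2⟩ := h.exists_rs_perp hk hn hx.rat.ratPt hy.rat.ratPt
  obtain ⟨g, hg, t, ht, ht0, e⟩ := h.exists_map_of_perp hx ha h1
  obtain ⟨g', hg', t', ht', ht0', e'⟩ := h.exists_map_of_perp ha hy (P.eq_zero_symm h2)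
  exact ⟨g' * g, Subgroup.mul_mem _ hg' hg, t * t', F₀.mul_mem ht ht', mul_ne_zero ht0 ht0', by
    rw [le_mul_apply, e, map_smul, e', smul_smul]⟩

theorem exists_pair_perp (hn : 5 ≤ Fintype.card ι) {d e a : V} (hd : RS P b F₀ d)
    (he : RS P b F₀ e) (hed : P.B e d = 1) (ha : RS P b F₀ a) (hda : P.B d a = 0)
    (hea : P.B e a = 0) : ∃ w w', Rat b F₀ w ∧ Rat b F₀ w' ∧
      (P.B d w = 0 ∧ P.B e w = 0 ∧ P.B a w = 0) ∧ (P.B d w' = 0 ∧ P.B e w' = 0 ∧ P.B a w' = 0) ∧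
      P.B w w' = 1 := by
  have hH := ratSub_triple hd.rat.ratPt he.rat.ratPt ha.rat.ratPt
  obtain ⟨w, hw, hw1, hw2⟩ := (h.ratSub_perp hH).exists_rat_notMem (U := F ∙ a) (fun hh => by
    have h1 := Submodule.finrank_mono hh
    have h2 := finrank_le_perp (P := P) (Submodule.span F {d, e, a})
    have h3 := finrank_span_triple_le (F := F) d e a
    have h4 := finrank_span_singleton_le (F := F) a
    rw [finrank_eq_card_basis b] at h2
    omega)
  have hw' := mem_perp_triple.1 hw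
  obtain ⟨w', h1, h2, h3⟩ := h.exists_rat_B hH hw1 (fun hh => by
    obtain ⟨s, z, hz, rfl⟩ := Submodule.mem_span_insert.1 hh
    obtain ⟨t, r, rfl⟩ := Submodule.mem_span_pair.1 hz
    have hde : P.B d e = P.ε := by rw [P.symm, hed]; simp
    obtain ⟨e1, e2, -⟩ := hw'
    simp only [map_add, map_smul, hd.self, he.self, hed, hde, hda, hea, smul_eq_mul, mul_zero,
      zero_add, add_zero, mul_one, mul_eq_zero] at e1 e2
    rw [e2, e1.resolve_right P.ε_ne_zero] at hw2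
    exact hw2 (by simpa using Submodule.smul_mem _ r (Submodule.mem_span_singleton_self a)))
  exact ⟨w, w', hw1, h1, hw', mem_perp_triple.1 h2, h3⟩

theorem inA_smul_sing (hn : 5 ≤ Fintype.card ι) (hM : ratStab b F₀ ⊓ EG P ≤ M) (hMI : M ≤ P.Isom)
    {d e a x : V} (hd : RS P b F₀ d) (he : RS P b F₀ e) (hed : P.B e d = 1) (ha : RS P b F₀ a)
    (hda : P.B d a = 0) (hea : P.B e a = 0) (hx : InA P M d x) {c₀ : F} (hc₀ : c₀ ∈ F₀) :
    InA P M d ((c₀ * P.B a x) • a) := by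
  obtain ⟨w', w, hw', hw, ⟨h1', -, h3'⟩, ⟨h1, -, h3⟩, hww⟩ :=
    h.exists_pair_perp hn hd he hed ha hda hea
  have hε := eps_mem P F₀
  have hεε := P.εε
  obtain ⟨c, hc, hc'⟩ := h.q_mem w hw
  obtain ⟨y, hy, ey⟩ := (h.has_eu_rat ha hw h3 hc hc').mono hM
  have hx1 := hx.fix hMI hd.sing hy
    (by rw [ey]; exact eu_fix c (P.eq_zero_symm hda) (P.eq_zero_symm h1))
  have hc1 : σ (-(P.ε * c₀)) ∈ F₀ := h.σ_mem _ (F₀.neg_mem (F₀.mul_mem hε hc₀))
  have hw2 := hw'.smul hc1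
  obtain ⟨c', hc2, hc2'⟩ := h.q_mem _ hw2
  obtain ⟨y', hy', ey'⟩ := (h.has_eu_rat ha hw2 (by simp [h3']) hc2 hc2').mono hM
  have hx2 := hx1.fix hMI hd.sing hy' (by
    rw [ey']; exact eu_fix c' (P.eq_zero_symm hda) (by simp [P.eq_zero_symm h1']))
  convert hx2 using 1
  rw [ey', ey, eu_apply, eu_apply]
  simp only [map_add, map_sub, map_smul, B_smul_left, ha.self, h3, P.eq_zero_symm h3', hww,
    P.σσ, smul_eq_mul]
  have : c₀ * P.B a x = P.ε * c₀ * (P.ε * P.B a x) := by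
    linear_combination (-c₀ * P.B a x) * hεε
  rw [this]
  module

theorem inA_smul_of (hn : 5 ≤ Fintype.card ι) (hM : ratStab b F₀ ⊓ EG P ≤ M) (hMI : M ≤ P.Isom)
    {d e a x : V} (hd : RS P b F₀ d) (he : RS P b F₀ e) (hed : P.B e d = 1) (ha : RS P b F₀ a)
    (hda : P.B d a = 0) (hea : P.B e a = 0) (hx : InA P M d x) {w : V} (hw : Rat b F₀ w)
    (hdw : P.B d w = 0) : InA P M d (P.B a x • w) := by
  set β := P.B a x
  have hw0 : Rat b F₀ (w - P.B e w • d) := hw.sub (hd.rat.smul (h.B_mem _ _ he.rat hw))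
  have key : ∀ c₀ ∈ F₀, InA P M d ((c₀ * β) • (w - P.B e w • d)) := by
    refine h.mem_of_sing (ratSub_pair hd.rat.ratPt he.rat.ratPt) ha
      (notMem_span_hyp hd.self he.self hed hda hea ha.ne) (mem_perp_pair.2 ⟨hda, hea⟩)
      (T := fun w => ∀ c₀ ∈ F₀, InA P M d ((c₀ * β) • w))
      (fun x y hx hy c hc => by rw [smul_add]; exact (hx c hc).add hd.sing (hy c hc))
      (fun t ht x hx c hc => by
        have := hx (c * t) (F₀.mul_mem hc ht)
        rwa [smul_smul, mul_right_comm])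
      (fun c hc => h.inA_smul_sing hn hM hMI hd he hed ha hda hea hx hc)
      (fun y hy hyU hya c hc => ?_) hw0
      (mem_perp_pair.2 ⟨by simp [hdw, hd.self], by simp [hed]⟩)
    have h1 := h.inA_smul_sing hn hM hMI hd he hed ha hda hea hx F₀.one_mem
    have h2 := h.inA_smul_sing hn hM hMI hd he hed hy (mem_perp_pair.1 hyU).1
      (mem_perp_pair.1 hyU).2 h1 (F₀.div_mem hc (h.B_mem _ _ hy.rat ha.rat))
    convert h2 using 2
    simp only [map_smul, smul_eq_mul]
    field_simp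
    rfl
  have := (key 1 F₀.one_mem).add_smul hd.sing (β * P.B e w)
  convert this using 1
  module

/-- If some `M ∩ X_d` is bigger than the rational one, `M` contains `E`. -/
theorem EG_le_of_level (hk : RIso P b F₀ k) (hn : k + 2 ≤ Fintype.card ι) (hn5 : 5 ≤ Fintype.card ι)
    {r : ℕ} (hr : r.Prime) (hcard : Fintype.card F = Nat.card F₀ ^ r)
    (hΛ : ∀ l ∈ P.Λ, ∃ a a' : F, ∃ c₀ ∈ F₀, c₀ ∈ P.Λ ∧ l = a - P.ε * σ a + σ a' * a' * c₀)
    (hM : ratStab b F₀ ⊓ EG P ≤ M) (hMI : M ≤ P.Isom) {d₀ x₀ : V} (hd₀ : RS P b F₀ d₀)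
    (hx₀ : InA P M d₀ x₀) (hx₀' : ∀ t : F, ¬ Rat b F₀ (x₀ + t • d₀)) : EG P ≤ M := by
  have hbot : RatSub b F₀ (⊥ : Submodule F V) :=
    fun f x hx => by rw [Submodule.mem_bot] at hx ⊢; rw [hx, proj_zero]
  have hp : ∀ z, z ∈ perp P (⊥ : Submodule F V) :=
    fun z u hu => by rw [Submodule.mem_bot] at hu; simp [hu]
  have hε := eps_mem P F₀
  have hεε := P.εε
  have setup : ∀ d, RS P b F₀ d → ∃ e a a', RS P b F₀ e ∧ P.B e d = 1 ∧ RS P b F₀ a ∧
      P.B d a = 0 ∧ P.B e a = 0 ∧ RS P b F₀ a' ∧ P.B a' a = 1 ∧ P.B d a' = 0 ∧ P.B e a' = 0 := by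
    intro d hd
    obtain ⟨e, he, hed, -⟩ := h.exists_partner hbot hd (by simpa using hd.ne) (hp _)
    obtain ⟨a, ha, hda, hea⟩ := h.exists_rs_perp hk hn hd.rat.ratPt he.rat.ratPt
    obtain ⟨a', ha', haa, haU⟩ := h.exists_partner (ratSub_pair hd.rat.ratPt he.rat.ratPt) ha
      (notMem_span_hyp hd.self he.self hed hda hea ha.ne) (mem_perp_pair.2 ⟨hda, hea⟩)
    exact ⟨e, a, a', he, hed, ha, hda, hea, ha', haa, mem_perp_pair.1 haU⟩
  have trans : ∀ (s : F) d, RS P b F₀ d → (∀ w, Rat b F₀ w → P.B d w = 0 → InA P M d (s • w)) →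
      ∀ d', RS P b F₀ d' → ∀ w, Rat b F₀ w → P.B d' w = 0 → InA P M d' (s • w) := by
    intro s d hd hs d' hd' w hw hdw
    obtain ⟨g, hg, t, ht, ht0, e⟩ := h.exists_map hk hn hd hd'
    have hw1 : Rat b F₀ ((σ t)⁻¹ • w) := hw.smul (F₀.inv_mem (h.σ_mem t ht))
    have h1 := (hs (g⁻¹ ((σ t)⁻¹ • w)) (((ratStab b F₀).inv_mem hg.1 _).1 hw1) (by
      rw [← (EG_le_isom hg.2).1, le_apply_inv, e]; simp [hdw])).conj hMI (hM hg)
    rw [e, map_smul, le_apply_inv] at h1
    have h2 := h1.of_smul ht0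
    rwa [smul_comm, smul_smul (σ t), mul_inv_cancel₀ (σ_ne_zero ht0), one_smul] at h2
  have hprod : ∀ s t : F, (∀ d, RS P b F₀ d → ∀ w, Rat b F₀ w → P.B d w = 0 → InA P M d (s • w)) →
      (∀ d, RS P b F₀ d → ∀ w, Rat b F₀ w → P.B d w = 0 → InA P M d (t • w)) →
      ∀ d, RS P b F₀ d → ∀ w, Rat b F₀ w → P.B d w = 0 → InA P M d ((σ s * t) • w) := by
    intro s t hs ht d hd w hw hdw
    obtain ⟨e, a, a', he, hed, ha, hda, hea, ha', haa, hda', hea'⟩ := setup d hd
    obtain ⟨u, v, hu, hv, ⟨h1, -, h3⟩, ⟨h1', -, h3'⟩, huv⟩ :=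
      h.exists_pair_perp hn5 hd he hed ha hda hea
    obtain ⟨-, c, -, y, hy, ey⟩ := hs a ha u hu h3
    have h4 := (ht d hd v hv h1').fix hMI hd.sing hy (by
      rw [ey]; exact eu_fix c (P.eq_zero_symm hda) (by simp [P.eq_zero_symm h1]))
    have h5 : y (t • v) - t • v = (σ s * t) • a := by
      rw [ey, eu_apply]
      simp only [map_smul, B_smul_left, h3', huv, smul_eq_mul]
      module
    rw [h5] at h4
    have h6 := h.inA_smul_of hn5 hM hMI hd he hed ha' hda' hea' h4 hw hdw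
    simpa [haa] using h6
  have hone : ∀ d, RS P b F₀ d → ∀ w, Rat b F₀ w → P.B d w = 0 → InA P M d ((1 : F) • w) :=
    fun d hd w hw hdw => by rw [one_smul]; exact h.inA_rat hM hd hw hdw
  let S : Subring F :=
    { carrier := {s | ∀ d, RS P b F₀ d → ∀ w, Rat b F₀ w → P.B d w = 0 → InA P M d (s • w)}
      zero_mem' := fun d _ w _ _ => by rw [zero_smul]; exact inA_zero d
      one_mem' := hone
      add_mem' := fun {s t} hs ht d hd w hw hdw => by
        rw [add_smul]; exact (hs d hd w hw hdw).add hd.sing (ht d hd w hw hdw)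
      neg_mem' := fun {s} hs d hd w hw hdw => by
        rw [neg_smul]; exact (hs d hd w hw hdw).neg hd.sing
      mul_mem' := fun {s t} hs ht => by
        have h1 := hprod s 1 hs hone
        have h2 := hprod _ t h1 ht
        simpa [P.σσ] using h2 }
  -- an irrational level
  obtain ⟨β, hβ, hβ'⟩ : ∃ β, β ∈ S ∧ β ∉ F₀ := by
    obtain ⟨e, a, a', he, hed, ha, hda, hea, -⟩ := setup d₀ hd₀
    have hx1 := hx₀.add_smul hd₀.sing (-P.B e x₀)
    set x := x₀ + (-P.B e x₀) • d₀ with hx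
    have hex : P.B e x = 0 := by simp [hx, hed]
    by_contra hc
    push Not at hc
    apply hx₀' (-P.B e x₀)
    refine h.rat_of_B fun v hv => ?_
    have hde : P.B d₀ e = P.ε := by rw [P.symm, hed]; simp
    have hv' : Rat b F₀ (v - P.B e v • d₀ - (P.ε * P.B d₀ v) • e) :=
      (hv.sub (hd₀.rat.smul (h.B_mem _ _ he.rat hv))).sub
        (he.rat.smul (F₀.mul_mem hε (h.B_mem _ _ hd₀.rat hv)))
    have := h.mem_of_sing (ratSub_pair hd₀.rat.ratPt he.rat.ratPt) ha
      (notMem_span_hyp hd₀.self he.self hed hda hea ha.ne) (mem_perp_pair.2 ⟨hda, hea⟩)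
      (T := fun v => P.B v x ∈ F₀) (fun y z hy hz => by simpa using F₀.add_mem hy hz)
      (fun t ht y hy => by rw [B_smul_left]; exact F₀.mul_mem (h.σ_mem t ht) hy)
      (hc _ (trans _ d₀ hd₀ fun w hw hdw => h.inA_smul_of hn5 hM hMI hd₀ he hed ha hda hea hx1 hw hdw))
      (fun y hy hyU _ => hc _ (trans _ d₀ hd₀ fun w hw hdw => h.inA_smul_of hn5 hM hMI hd₀ he hed hy
        (mem_perp_pair.1 hyU).1 (mem_perp_pair.1 hyU).2 hx1 hw hdw)) hv'
      (mem_perp_pair.2 ⟨by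
        simp only [map_sub, map_smul, hd₀.self, hde, smul_eq_mul]
        linear_combination (-P.B d₀ v) * hεε, by simp [hed, he.self]⟩)
    change P.B v x ∈ F₀
    simpa [B_smul_left, hex, hx1.perp] using this
  have hall := subring_eq_top hr hcard S
    (fun c hc d hd w hw hdw => h.inA_rat hM hd (hw.smul hc) (by simp [hdw])) hβ hβ'
  have hfull : ∀ d, RS P b F₀ d → ∀ w, P.B d w = 0 → InA P M d w := by
    intro d hd w hw
    let T : Submodule F V :=
      { carrier := {w | ∀ s : F, InA P M d (s • w)}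
        zero_mem' := fun s => by rw [smul_zero]; exact inA_zero d
        add_mem' := fun {x y} hx hy s => by rw [smul_add]; exact (hx s).add hd.sing (hy s)
        smul_mem' := fun c x hx s => by rw [smul_smul]; exact hx _ }
    have : perp P (F ∙ d) ≤ T := (h.ratSub_perp (ratSub_single hd.rat.ratPt)).le_of_rat
      fun v hv hv' s => hall s d hd v hv' (mem_perp_singleton.1 hv)
    simpa using this (mem_perp_singleton.2 hw) 1
  have hZ : ∀ d, RS P b F₀ d → ∀ l ∈ P.Λ, Has M (eu P d 0 l) := by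
    intro d hd l hl
    obtain ⟨α, α', c₀, hc₀, hc₀', rfl⟩ := hΛ l hl
    obtain ⟨e, a, a', he, hed, ha, hda, hea, ha', haa, hda', hea'⟩ := setup d hd
    have h1 : Has M (eu P d 0 (α - P.ε * σ α)) := by
      obtain ⟨-, c, -, k1⟩ := hfull d hd a' hda'
      obtain ⟨-, c', -, k2⟩ := hfull d hd (α • a) (by simp [hda])
      have k3 := has_eu_add hd.sing hda' (by simp [hda]) k1 k2
      have k4 := has_eu_add hd.sing (by simp [hda]) hda' k2 k1
      rw [add_comm (α • a)] at k4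
      have k5 := has_eu_sub_same hd.sing (by simp [hda, hda']) k3 k4
      have k6 : c + c' + P.B a' (α • a) - (c' + c + P.B (α • a) a') = α - P.ε * σ α := by
        rw [B_smul_left, P.symm a' a, haa, map_smul, haa]
        simp only [smul_eq_mul, map_one]; ring
      rwa [k6] at k5
    have h2 : Has M (eu P d 0 (σ α' * α' * c₀)) := by
      by_cases hα : α' = 0
      · rw [hα]; simpa using (has_id.congr fun x => (eu_zero d x).symm : Has M (eu P d 0 0))
      obtain ⟨-, c, -, y, hy, ey⟩ := hfull d hd (σ α' • a') (by simp [hda'])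
      obtain ⟨-, c', -, y', hy', ey'⟩ := hfull a ha (-(σ α'⁻¹) • e) (by simp [P.eq_zero_symm hea])
      have k1 := has_eu_conj ((h.has_eu_rat ha rat_zero (by simp) hc₀
        (P.Λ.sub_mem hc₀' P.q_zero)).mono hM) (M.mul_mem hy' hy) (hMI (M.mul_mem hy' hy))
      have k2 : (y' * y) a = α' • d := by
        rw [le_mul_apply, ey, eu_apply, ey', eu_apply]
        simp only [map_add, map_sub, map_smul, map_neg, B_smul_left, P.σσ, haa, hda, ha.self,
          P.eq_zero_symm hda, hea, hed, smul_eq_mul, neg_smul, LinearMap.neg_apply]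
        have : α' * α'⁻¹ = 1 := mul_inv_cancel₀ hα
        simp [this]
      rw [k2, map_zero] at k1
      refine k1.congr fun x => ?_
      rw [eu_smul, smul_zero]
    have := has_eu_add hd.sing (by simp) (by simp) h1 h2
    simpa using this
  have hX : ∀ d, RS P b F₀ d → XLe P M d := by
    intro d hd w c hw hc
    obtain ⟨-, c', hc', k1⟩ := hfull d hd w hw
    exact has_eu_valid hd.sing hw k1 (hZ d hd _ (by simpa using P.Λ.sub_mem hc hc'))
  obtain ⟨e, -, -, he, hed, -⟩ := setup d₀ hd₀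
  exact EG_le_of_xle h.nd he.sing hd₀.sing (hX e he) (hX d₀ hd₀) (by simp [hed])

/-- The general scheme: maximality follows once overgroups with rational levels are shown to
normalise the rational structure. -/
theorem isMaximalIn_of_level (hk : RIso P b F₀ k) (hn : k + 2 ≤ Fintype.card ι)
    (hn5 : 5 ≤ Fintype.card ι) {r : ℕ} (hr : r.Prime) (hcard : Fintype.card F = Nat.card F₀ ^ r)
    (hΛ : ∀ l ∈ P.Λ, ∃ a a' : F, ∃ c₀ ∈ F₀, c₀ ∈ P.Λ ∧ l = a - P.ε * σ a + σ a' * a' * c₀)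
    (hI : ∀ M : Subgroup (V ≃ₗ[F] V), ratStab b F₀ ⊓ EG P ≤ M → M ≤ P.Isom →
      (∀ d w, RS P b F₀ d → InA P M d w → ∃ t : F, Rat b F₀ (w + t • d)) → M ≤ ratNorm b F₀) :
    Geo.IsMaximalIn (EG P) (ratNorm b F₀ ⊓ EG P) := by
  refine isMaximalIn_of inf_le_right (fun hle => ?_) fun M h1 h2 hex => ?_
  · obtain ⟨s, hs⟩ := exists_notMem_of_card hr hcard
    obtain ⟨d, hd, -⟩ := h.exists_rs_perp hk hn rat_zero.ratPt rat_zero.ratPt
    obtain ⟨e, he, hed, -⟩ := h.exists_partner (H := ⊥)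
      (fun f x hx => by rw [Submodule.mem_bot] at hx ⊢; rw [hx, proj_zero]) hd
      (by simpa using hd.ne) (fun u hu => by rw [Submodule.mem_bot] at hu; simp [hu])
    obtain ⟨a, ha, hda, hea⟩ := h.exists_rs_perp hk hn hd.rat.ratPt he.rat.ratPt
    obtain ⟨a', ha', haa, haU⟩ := h.exists_partner (ratSub_pair hd.rat.ratPt he.rat.ratPt) ha
      (notMem_span_hyp hd.self he.self hed hda hea ha.ne) (mem_perp_pair.2 ⟨hda, hea⟩)
    obtain ⟨g, hg, eg⟩ := has_eu_EG (w := σ s • a') (c := P.q (σ s • a')) hd.sing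
      (by simp [(mem_perp_pair.1 haU).1]) (by simp)
    have := ha.rat.ratPt.apply (hle hg).1
    rw [eg, eu_apply] at this
    refine not_ratPt_add_smul hd.rat ha.rat hd.ne (fun hh => ?_) hs
      (by simpa [B_smul_left, P.σσ, haa, hda] using this)
    exact notMem_span_hyp hd.self he.self hed hda hea ha.ne
      (Submodule.span_mono (by simp) hh)
  have hM : ratStab b F₀ ⊓ EG P ≤ M := (inf_le_inf_right _ ratStab_le_ratNorm).trans h1
  have hMI := h2.trans EG_le_isom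
  by_contra hE
  obtain ⟨g, hg, hg'⟩ := hex
  refine hg' ⟨hI M hM hMI (fun d w hd hw => ?_) hg, h2 hg⟩
  by_contra hc
  push Not at hc
  exact hE (h.EG_le_of_level hk hn hn5 hr hcard hΛ hM hMI hd hw hc)

end RatPQ

end H11.Sub
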