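import Mathlib
import Cfsg.Agent.Base
import Cfsg.Agent.Lib.Subfld.PQ1

/-!
Overgroups of the rational Eichler group with rational levels normalise the rational structure:
the case of rational transvections, and the case of a quadratic extension.
-/

set_option autoImplicit false
set_option linter.unusedSectionVars false

namespace H11.Sub

open Module Cfsg H97 H28

variable {F V : Type*} [Field F] [AddCommGroup V] [Module F V] {σ : F →+* F} {ι : Type*}
  [Fintype ι] {P : PQ F V σ} {b : Basis ι F V} {F₀ : Subfield F} {M : Subgroup (V ≃ₗ[F] V)}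
  [FiniteDimensional F V] [Fintype F] {k : ℕ}

theorem mem_span_single_symm {x y : V} (h : x ∈ F ∙ y) (hx : x ≠ 0) : y ∈ F ∙ x := by
  obtain ⟨t, rfl⟩ := Submodule.mem_span_singleton.1 h
  have ht : t ≠ 0 := by rintro rfl; simp at hx
  exact Submodule.mem_span_singleton.2 ⟨t⁻¹, by simp [smul_smul, ht]⟩

theorem left_mem_pair (x y : V) : x ∈ Submodule.span F {x, y} := Submodule.subset_span (by simp)

theorem right_mem_pair (x y : V) : y ∈ Submodule.span F {x, y} := Submodule.subset_span (by simp)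

theorem single_le_pair_left (x y : V) : (F ∙ x) ≤ Submodule.span F {x, y} :=
  Submodule.span_mono (by simp)

theorem single_le_pair_right (x y : V) : (F ∙ y) ≤ Submodule.span F {x, y} :=
  Submodule.span_mono (by simp)

/-- A vector on two different rational lines is a rational point. -/
theorem ratPt_of_two_lines {W W' : Submodule F V} (hW : RatSub b F₀ W) (hW' : RatSub b F₀ W')
    {u x : V} (hu : u ∈ W) (hx : x ∉ W) (e : W' = Submodule.span F {u, x}) : RatPt b F₀ u := by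
  refine ratPt_of_ratSub (hW.inf hW') ⟨hu, e ▸ left_mem_pair u x⟩ fun y hy => ?_
  obtain ⟨hy1, hy2⟩ := hy
  rw [e] at hy2
  obtain ⟨s, t, rfl⟩ := Submodule.mem_span_pair.1 hy2
  have ht : t = 0 := by
    by_contra ht
    apply hx
    have : x = t⁻¹ • ((s • u + t • x) - s • u) := by simp [smul_smul, ht]
    rw [this]
    exact W.smul_mem _ (W.sub_mem hy1 (W.smul_mem _ hu))
  rw [ht, zero_smul, add_zero]
  exact Submodule.smul_mem _ _ (Submodule.mem_span_singleton_self u)

theorem span_pair_smul_add {u d : V} {s : F} (hs : s ≠ 0) (t : F) :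
    Submodule.span F {s • u + t • d, d} = Submodule.span F {u, d} := by
  apply le_antisymm <;> rw [Submodule.span_le] <;> rintro x (rfl | rfl)
  · exact Submodule.add_mem _ (Submodule.smul_mem _ _ (left_mem_pair _ _))
      (Submodule.smul_mem _ _ (right_mem_pair _ _))
  · exact right_mem_pair _ _
  · exact Submodule.mem_span_pair.2 ⟨s⁻¹, -(s⁻¹ * t), by simp [smul_smul, hs]⟩
  · exact right_mem_pair _ _

theorem rat_of_fix (h : RatPQ P b F₀) (hM : ratStab b F₀ ⊓ EG P ≤ M) (hMI : M ≤ P.Isom)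
    (hI : ∀ d w, RS P b F₀ d → InA P M d w → ∃ t : F, Rat b F₀ (w + t • d)) {d x : V}
    (hd : RS P b F₀ d) {y : V ≃ₗ[F] V} (hy : y ∈ M) (hyd : y d = d) (hx : Rat b F₀ x)
    (hdx : P.B d x = 0) : ∃ t : F, Rat b F₀ (y x - x + t • d) :=
  hI d _ hd ((h.inA_rat hM hd hx hdx).fix hMI hd.sing hy hyd)

/-- The case of rational transvections. -/
theorem RatPQ.le_ratNorm_of_transv (h : RatPQ P b F₀) (hk : RIso P b F₀ k)
    (hn : k + 4 ≤ Fintype.card ι) {c₀ : F} (hc₀ : c₀ ∈ F₀) (hc₀' : c₀ ∈ P.Λ) (hc0 : c₀ ≠ 0)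
    (hM : ratStab b F₀ ⊓ EG P ≤ M) (hMI : M ≤ P.Isom)
    (hI : ∀ d w, RS P b F₀ d → InA P M d w → ∃ t : F, Rat b F₀ (w + t • d)) :
    M ≤ ratNorm b F₀ := by
  have hT : ∀ d, RS P b F₀ d → Has M (eu P d 0 c₀) := fun d hd =>
    (h.has_eu_rat hd rat_zero (by simp) hc₀ (P.Λ.sub_mem hc₀' P.q_zero)).mono hM
  have hT' : ∀ g ∈ M, ∀ d, RS P b F₀ d → Has M (eu P (g d) 0 c₀) := fun g hg d hd => by
    simpa using has_eu_conj (hT d hd) hg (hMI hg)
  have sub : ∀ u d, Has M (eu P u 0 c₀) → RS P b F₀ d → P.B d u = 0 →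
      RatSub b F₀ (Submodule.span F {u, d}) := by
    intro u d ⟨y, hy, ey⟩ hd hdu
    by_cases hu : u ∈ F ∙ d
    · obtain ⟨t, rfl⟩ := Submodule.mem_span_singleton.1 hu
      exact ratSub_pair (hd.rat.ratPt.smul t) hd.rat.ratPt
    obtain ⟨x, hx, hx1, hx2⟩ := h.exists_rat_B_ne (ratSub_single hd.rat.ratPt) hu
    obtain ⟨t, ht⟩ := rat_of_fix h hM hMI hI hd hy
      (by rw [ey]; exact eu_fix c₀ (P.eq_zero_symm hdu) (by simp)) hx (mem_perp_singleton.1 hx1)
    have e : y x - x = (-(P.ε * c₀ * P.B u x)) • u := by rw [ey, eu_apply]; simp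
    rw [e] at ht
    rw [← span_pair_smul_add (neg_ne_zero.2 (mul_ne_zero (mul_ne_zero P.ε_ne_zero hc0) hx2)) t]
    exact ratSub_pair ht.ratPt hd.rat.ratPt
  have C1 : ∀ u d, P.q u ∈ P.Λ → Has M (eu P u 0 c₀) → RS P b F₀ d → P.B d u = 0 →
      RatPt b F₀ u := by
    intro u d hu hTu hd hdu
    by_cases hud : u ∈ F ∙ d
    · obtain ⟨t, rfl⟩ := Submodule.mem_span_singleton.1 hud
      exact hd.rat.ratPt.smul t
    have h1 := sub u d hTu hd hdu
    obtain ⟨d', hd', hd'U, hd''⟩ := hk.exists_notMem 2 (h.ratSub_perp h1) h1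
      (finrank_span_pair_le u d) (by have := h.finrank_perp_pair u d; omega)
    exact ratPt_of_two_lines h1 (sub u d' hTu hd'' (P.eq_zero_symm (mem_perp_pair.1 hd').1))
      (left_mem_pair u d) hd'U rfl
  have B : ∀ g ∈ M, ∀ d, RS P b F₀ d → RatPt b F₀ (g d) → g ∈ ratNorm b F₀ := by
    intro g hg d hd hgd
    have step : ∀ a a', RS P b F₀ a → RS P b F₀ a' → P.B a a' = 0 → RatPt b F₀ (g a) →
        RatPt b F₀ (g a') := by
      rintro a a' ha ha' haa ⟨c, v, hv, e⟩
      have hc : c ≠ 0 := by rintro rfl; exact ha.ne (g.injective (by simpa using e))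
      have e' : v = c⁻¹ • g a := by rw [e]; simp [smul_smul, hc]
      refine C1 _ v (isom_q (hMI hg) ha'.sing) (hT' g hg a' ha') ⟨hv, fun h0 => ?_, ?_⟩ ?_
      · exact ha.ne (g.injective (by simp [e, h0]))
      · rw [e']; exact P.q_smul_mem (isom_q (hMI hg) ha.sing) _
      · rw [e', B_smul_left, (hMI hg).1, haa, mul_zero]
    refine h.mem_ratNorm_of_sing hk (by omega) fun a ha => ?_
    obtain ⟨a', ha', h1, h2⟩ := h.exists_rs_perp hk (by omega) hd.rat.ratPt ha.rat.ratPt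
    exact step a' a ha' ha (P.eq_zero_symm h2) (step d a' hd ha' h1 hgd)
  intro g hg
  obtain ⟨d, hd, -⟩ := h.exists_rs_perp hk (by omega) rat_zero.ratPt rat_zero.ratPt
  refine B g hg d hd ?_
  by_contra hu
  have hTu := hT' g hg d hd
  have huq := isom_q (hMI hg) hd.sing
  set u := g d
  have hφ : ∀ a, RS P b F₀ a → P.B u a ≠ 0 := fun a ha h0 =>
    hu (C1 u a huq hTu ha (P.eq_zero_symm h0))
  obtain ⟨d', hd', hdd', -, hd'd⟩ := h.exists_rs_perp_notMem hk hn hd.rat.ratPt hd.rat.ratPt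
  obtain ⟨v, hv, hdv, hd'v, hvd⟩ := h.exists_rs_perp_notMem hk hn hd.rat.ratPt hd'.rat.ratPt
  obtain ⟨y, hy, ey⟩ := hTu
  have key : ∀ a, RS P b F₀ a → ∃ k ∈ M, (∃ c : F, c ≠ 0 ∧ k a = c • u) ∧
      ∀ z, P.B a z = 0 → P.B u z = 0 → k z = z := by
    intro a ha
    obtain ⟨x, hx, ex⟩ := hT a ha
    have hau := B_ne_zero_symm (hφ a ha)
    obtain ⟨k, hk, hk'⟩ := exists_map_center (x := x) (y := y) (d := a) (u := u)
      (α := -(P.ε * c₀ * P.B a u)) (β := -(P.ε * c₀ * P.B u a))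
      (fun s t h => by
        have h1 := congrArg (P.B a) h
        simp only [map_add, map_smul, ha.self, smul_eq_mul, mul_zero, zero_add, map_zero,
          mul_eq_zero] at h1
        have ht := h1.resolve_right hau
        rw [ht, zero_smul, add_zero, smul_eq_zero] at h
        exact ⟨h.resolve_right ha.ne, ht⟩)
      (by rw [ex]; exact eu_fix _ ha.self (by simp)) (by rw [ex, eu_apply]; simp)
      (by rw [ey]; exact eu_fix _ (P.self_eq_zero huq) (by simp)) (by rw [ey, eu_apply]; simp)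
      (neg_ne_zero.2 (mul_ne_zero (mul_ne_zero P.ε_ne_zero hc0) hau))
      (neg_ne_zero.2 (mul_ne_zero (mul_ne_zero P.ε_ne_zero hc0) (hφ a ha)))
    exact ⟨k, closure_pair_le hx hy hk, hk', fun z h1 h2 =>
      closure_pair_fix (by rw [ex]; exact eu_fix _ h1 (by simp))
        (by rw [ey]; exact eu_fix _ h2 (by simp)) hk⟩
  obtain ⟨k, hk, ⟨c, hc, ek⟩, hkz⟩ := key d hd
  obtain ⟨k', hk', ⟨c', hc', ek'⟩, hkz'⟩ := key d' hd'
  set j := k'⁻¹ * k
  have hh : j d = (c / c') • d' := by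
    apply k'.injective
    rw [le_mul_apply, le_apply_inv, map_smul, ek, ek', smul_smul, div_mul_cancel₀ _ hc']
  have hhM : j ∈ M := M.mul_mem (M.inv_mem hk') hk
  have hhN := B j hhM d hd (hh ▸ hd'.rat.ratPt.smul _)
  have hφa := hφ d hd
  have hlin : ∀ z, P.B d z = 0 → P.B d' z = 0 →
      j z = z + P.B u z • (P.B u d)⁻¹ • (j d - d) := by
    intro z hz hz'
    have h1 : j (z - (P.B u z / P.B u d) • d) = z - (P.B u z / P.B u d) • d := by
      have e1 : P.B d (z - (P.B u z / P.B u d) • d) = 0 := by simp [hz, hd.self]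
      have e1' : P.B d' (z - (P.B u z / P.B u d) • d) = 0 := by simp [hz', P.eq_zero_symm hdd']
      have e2 : P.B u (z - (P.B u z / P.B u d) • d) = 0 := by simp [hφa]
      apply k'.injective
      rw [le_mul_apply, le_apply_inv, hkz _ e1 e2, hkz' _ e1' e2]
    rw [map_sub, map_smul] at h1
    rw [smul_smul, ← div_eq_mul_inv]
    linear_combination (norm := module) h1
  refine generic_contra hd.rat hd'.rat hv.rat (fun hh => hd'd (single_le_pair_left d d hh)) hd.ne
    hvd (hlin d hd.self (P.eq_zero_symm hdd')) (hlin v hdv hd'v)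
    (hh ▸ Submodule.smul_mem _ _ (Submodule.mem_span_singleton_self d'))
    (hv.rat.ratPt.apply hhN) ((hd.rat.add hv.rat).ratPt.apply hhN)
    (fun t ht => hφ _ ⟨hd.rat.add (hv.rat.smul ht), fun h0 => ?_, ?_⟩) (hφ v hv)
  · by_cases ht0 : t = 0
    · exact hd.ne (by simpa [ht0] using h0)
    apply hvd
    have : v = -(t⁻¹ • d) := by
      rw [eq_neg_of_add_eq_zero_left h0]; simp [smul_smul, ht0]
    rw [this]
    exact Submodule.neg_mem _ (Submodule.smul_mem _ _ (left_mem_pair _ _))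
  · simpa using sing_add_smul hd.sing hv.sing hdv 1 t

theorem exists_two_proj (h2 : finrank F₀ F = 2) : ∃ (f₁ f₂ : F →ₗ[F₀] F₀) (θ₁ θ₂ : F),
    ∀ c : F, c = θ₁ * f₁ c + θ₂ * f₂ c := by
  let e := Module.finBasisOfFinrankEq F₀ F h2
  refine ⟨e.coord 0, e.coord 1, e 0, e 1, fun c => ?_⟩
  conv_lhs => rw [← e.sum_repr c]
  rw [Fin.sum_univ_two, mul_comm (e 0), mul_comm (e 1)]
  rfl

/-- The case of a quadratic extension in which isotropic vectors are singular. -/
theorem RatPQ.le_ratNorm_of_two (h : RatPQ P b F₀) (hk : RIso P b F₀ k)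
    (hn : k + 2 ≤ Fintype.card ι) (hn6 : 6 ≤ Fintype.card ι) (h2 : finrank F₀ F = 2)
    (hiso : ∀ x, P.B x x = 0 → P.q x ∈ P.Λ)
    (hM : ratStab b F₀ ⊓ EG P ≤ M) (hMI : M ≤ P.Isom)
    (hI : ∀ d w, RS P b F₀ d → InA P M d w → ∃ t : F, Rat b F₀ (w + t • d)) :
    M ≤ ratNorm b F₀ := by
  obtain ⟨f₁, f₂, θ₁, θ₂, hθ⟩ := exists_two_proj h2
  intro g hg
  refine h.mem_ratNorm_of_sing hk hn fun d₀ hd₀ => ?_
  by_contra hu
  have huq := isom_q (hMI hg) hd₀.sing
  set u := g d₀ with hud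
  -- a large family of elements of `M ∩ X_u` fixing `d`
  have big : ∀ d, P.B d u = 0 → ∀ Z : Submodule F V,
      (∀ w, InA P M u w → P.B d w = 0 → w ∈ Z) →
      ∃ Y ≤ Z, 3 ≤ finrank F Y ∧ Y ≤ perp P (F ∙ u) := by
    intro d hdu Z hZ
    let φ : Dual F V := P.B d ∘ₗ (g : V →ₗ[F] V)
    let Y := (perp P (F ∙ d₀) ⊓ LinearMap.ker (projD b f₁ φ)) ⊓ LinearMap.ker (projD b f₂ φ)
    have hY : RatSub b F₀ Y := ((h.ratSub_perp (ratSub_single hd₀.rat.ratPt)).inf
      (ratD_projD f₁ φ).ratSub_ker).inf (ratD_projD f₂ φ).ratSub_ker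
    have hdim : 3 ≤ finrank F Y := by
      have e1 := finrank_inf_ker' (perp P (F ∙ d₀)) (projD b f₁ φ)
      have e2 := finrank_inf_ker' (perp P (F ∙ d₀) ⊓ LinearMap.ker (projD b f₁ φ)) (projD b f₂ φ)
      have e3 := finrank_le_perp (P := P) (F ∙ d₀)
      have e4 := finrank_span_singleton_le (F := F) d₀
      rw [finrank_eq_card_basis b] at e3
      dsimp only [Y]
      omega
    refine ⟨Y.map (g : V →ₗ[F] V), ?_, by rwa [LinearEquiv.finrank_map_eq], ?_⟩
    · rw [Submodule.map_le_iff_le_comap]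
      refine hY.le_of_rat fun w hw hw' => hZ _ ?_ ?_
      · exact (h.inA_rat hM hd₀ hw' (mem_perp_singleton.1 hw.1.1)).conj hMI hg
      · have e1 : (f₁ (φ w) : F) = 0 := by rw [← projD_apply (b := b) f₁ φ hw']; exact hw.1.2
        have e2 : (f₂ (φ w) : F) = 0 := by rw [← projD_apply (b := b) f₂ φ hw']; exact hw.2
        have := hθ (φ w)
        rw [e1, e2] at this
        simpa [φ] using this
    · rintro _ ⟨w, hw, rfl⟩
      rw [mem_perp_singleton, hud]
      exact ((hMI hg).1 _ _).trans (mem_perp_singleton.1 hw.1.1)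
  -- `u` is not on a rational totally singular line
  have line : ∀ a d, RS P b F₀ a → RS P b F₀ d → P.B a d = 0 → a ∉ F ∙ d →
      u ∉ Submodule.span F {a, d} := by
    intro a d ha hd had hind hmem
    obtain ⟨α, β, e⟩ := Submodule.mem_span_pair.1 hmem
    have hα : α ≠ 0 := by
      rintro rfl
      exact hu (by rw [← e]; simpa using hd.rat.ratPt.smul β)
    have hdu : P.B d u = 0 := by rw [← e]; simp [hd.self, P.eq_zero_symm had]
    have hau : P.B a u = 0 := by rw [← e]; simp [ha.self, had]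
    have hR := ratSub_pair ha.rat.ratPt hd.rat.ratPt
    obtain ⟨Y, hY, hdim, -⟩ := big d hdu (Submodule.span F {a, d}) (by
      rintro w ⟨huw, c, -, y, hy, ey⟩ hdw
      have haw : P.B a w = 0 := by
        rw [← e] at huw
        simpa [B_smul_left, hdw, hα] using huw
      by_contra hw
      obtain ⟨x, hx, hx1, hx2⟩ := h.exists_rat_B_ne hR hw
      obtain ⟨hax, hdx⟩ := mem_perp_pair.1 hx1
      have hux : P.B u x = 0 := by rw [← e]; simp [hax, hdx]
      have hyx : y x - x = P.B w x • u := by rw [ey, eu_apply]; simp [hux]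
      obtain ⟨t, ht⟩ := rat_of_fix h hM hMI hI hd hy
        (by rw [ey]; exact eu_fix c (P.eq_zero_symm hdu) (P.eq_zero_symm hdw)) hx hdx
      obtain ⟨t', ht'⟩ := rat_of_fix h hM hMI hI ha hy
        (by rw [ey]; exact eu_fix c (P.eq_zero_symm hau) (P.eq_zero_symm haw)) hx hax
      rw [hyx, ← e] at ht ht'
      have k1 : P.B w x * α ∈ F₀ := mem_of_rat_add (ratSub_single hd.rat.ratPt) ha.rat hind
        (Submodule.smul_mem _ (P.B w x * β + t) (Submodule.mem_span_singleton_self d))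
        (by convert ht using 1; module)
      have k2 : P.B w x * β ∈ F₀ := mem_of_rat_add (ratSub_single ha.rat.ratPt) hd.rat
        (fun hh => hind (mem_span_single_symm hh hd.ne))
        (Submodule.smul_mem _ (P.B w x * α + t') (Submodule.mem_span_singleton_self a))
        (by convert ht' using 1; module)
      refine hu (RatPt.of_smul (Rat.ratPt ?_) hx2)
      rw [← e, smul_add, smul_smul, smul_smul]
      exact (ha.rat.smul k1).add (hd.rat.smul k2))
    have := (Submodule.finrank_mono hY).trans (finrank_span_pair_le a d)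
    omega
  set v₁ := proj b f₁ u
  set v₂ := proj b f₂ u
  have huv : u = θ₁ • v₁ + θ₂ • v₂ := by
    apply b.repr.injective
    ext i
    simp only [v₁, v₂, map_add, map_smul, Finsupp.add_apply, Finsupp.smul_apply, repr_proj,
      smul_eq_mul]
    exact hθ _
  have hv₁ : Rat b F₀ v₁ := rat_proj _ _
  have hv₂ : Rat b F₀ v₂ := rat_proj _ _
  have huU : u ∈ Submodule.span F {v₁, v₂} := Submodule.mem_span_pair.2 ⟨θ₁, θ₂, huv.symm⟩
  obtain ⟨d, hd, h1, h2⟩ := h.exists_rs_perp hk hn hv₁.ratPt hv₂.ratPt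
  have hdu : P.B d u = 0 := by
    rw [huv]; simp [P.eq_zero_symm h1, P.eq_zero_symm h2]
  by_cases hc : ∃ s t : F, s ≠ 0 ∧ Rat b F₀ (s • u + t • d)
  · obtain ⟨s, t, hs, hv⟩ := hc
    have hud : u ∉ F ∙ d := fun hh => by
      obtain ⟨r, hr⟩ := Submodule.mem_span_singleton.1 hh
      exact hu (hr ▸ hd.rat.ratPt.smul r)
    have hvd : s • u + t • d ∉ F ∙ d := fun hh => hud (by
      have : u = s⁻¹ • ((s • u + t • d) - t • d) := by simp [smul_smul, hs]
      rw [this]
      exact Submodule.smul_mem _ _ (Submodule.sub_mem _ hh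
        (Submodule.smul_mem _ _ (Submodule.mem_span_singleton_self d))))
    refine line _ d ⟨hv, fun h0 => hvd (by simp [h0]),
      sing_add_smul huq hd.sing (P.eq_zero_symm hdu) s t⟩ hd
      (by simp [P.eq_zero_symm hdu, hd.self]) hvd ?_
    rw [span_pair_smul_add hs]
    exact left_mem_pair u d
  push Not at hc
  have hR := ratSub_triple hv₁.ratPt hv₂.ratPt hd.rat.ratPt
  obtain ⟨Y, hY, hdim, hYu⟩ := big d hdu (Submodule.span F {v₁, v₂, d}) (by
    rintro w ⟨huw, c, -, y, hy, ey⟩ hdw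
    by_contra hw
    obtain ⟨x, hx, hx1, hx2⟩ := h.exists_rat_B_ne hR hw
    obtain ⟨h1x, h2x, hdx⟩ := mem_perp_triple.1 hx1
    have hux : P.B u x = 0 := by rw [huv]; simp [h1x, h2x]
    have hyx : y x - x = P.B w x • u := by rw [ey, eu_apply]; simp [hux]
    obtain ⟨t, ht⟩ := rat_of_fix h hM hMI hI hd hy
      (by rw [ey]; exact eu_fix c (P.eq_zero_symm hdu) (P.eq_zero_symm hdw)) hx hdx
    exact hc _ t hx2 (hyx ▸ ht))
  have hYe : Y = Submodule.span F {v₁, v₂, d} := Submodule.eq_of_le_of_finrank_le hY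
    ((finrank_span_triple_le v₁ v₂ d).trans hdim)
  rw [hYe] at hYu
  have hup : u ∈ perp P (Submodule.span F {v₁, v₂}) := mem_perp_pair.2
    ⟨P.eq_zero_symm (mem_perp_singleton.1 (hYu (Submodule.subset_span (by simp)))),
      P.eq_zero_symm (mem_perp_singleton.1 (hYu (Submodule.subset_span (by simp))))⟩
  have hp := h.ratSub_perp (ratSub_pair hv₁.ratPt hv₂.ratPt)
  obtain ⟨e11, e21⟩ := mem_perp_pair.1 (hp f₁ u hup)
  obtain ⟨e12, e22⟩ := mem_perp_pair.1 (hp f₂ u hup)
  have hind : v₁ ∉ F ∙ v₂ := fun hh => by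
    obtain ⟨r, hr⟩ := Submodule.mem_span_singleton.1 hh
    refine hu ⟨θ₁ * r + θ₂, v₂, hv₂, ?_⟩
    rw [huv, ← hr]; module
  have hv20 : v₂ ≠ 0 := fun h0 => hu ⟨θ₁, v₁, hv₁, by rw [huv, h0]; simp⟩
  exact line v₁ v₂ ⟨hv₁, fun h0 => hind (by simp [h0]), hiso _ e11⟩ ⟨hv₂, hv20, hiso _ e22⟩ e12
    hind huU

end H11.Sub
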