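import Mathlib
import Cfsg.Agent.Base
import Cfsg.Agent.Lib.Subfld.PQ2

/-!
Overgroups of the rational Eichler group with rational levels normalise the rational structure:
the orthogonal case, through long root elements.
-/

set_option autoImplicit false
set_option linter.unusedSectionVars false

namespace H11.Sub

open Module Cfsg H97 H28

variable {F V : Type*} [Field F] [AddCommGroup V] [Module F V] {ι : Type*}
  [Fintype ι] {P : PQ F V (RingHom.id F)} {b : Basis ι F V} {F₀ : Subfield F}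
  {M : Subgroup (V ≃ₗ[F] V)} [FiniteDimensional F V] [Fintype F] {k : ℕ}

/-- `M` contains the long root element attached to the totally singular line through `x`, `y`. -/
structure Root (P : PQ F V (RingHom.id F)) (M : Subgroup (V ≃ₗ[F] V)) (x y : V) : Prop where
  q1 : P.q x ∈ P.Λ
  q2 : P.q y ∈ P.Λ
  perp : P.B x y = 0
  ne : x ≠ 0
  ind : y ∉ F ∙ x
  has : Has M (eu P x y 0)

theorem B_comm (hε : P.ε = 1) (x y : V) : P.B x y = P.B y x := by rw [P.symm, hε]; simp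

theorem eu_root (hε : P.ε = 1) (x y z : V) : eu P x y 0 z = z + P.B y z • x - P.B x z • y := by
  simp [eu_apply, hε]

theorem indep_of_notMem {x y : V} (hx : x ≠ 0) (hy : y ∉ F ∙ x) {s t : F} (h : s • x + t • y = 0) :
    s = 0 ∧ t = 0 := by
  have ht : t = 0 := by
    by_contra ht
    apply hy
    refine Submodule.mem_span_singleton.2 ⟨-(t⁻¹ * s), ?_⟩
    have : y = t⁻¹ • (t • y) := by simp [smul_smul, ht]
    rw [this, eq_neg_of_add_eq_zero_right h]; module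
  rw [ht, zero_smul, add_zero, smul_eq_zero] at h
  exact ⟨h.resolve_right hx, ht⟩

theorem span_pair_eq_of_mem {x y d w : V} (hd : d ∈ Submodule.span F {x, y})
    (hw : w ∈ Submodule.span F {x, y}) (hd0 : d ≠ 0) (hind : w ∉ F ∙ d) :
    Submodule.span F {d, w} = Submodule.span F {x, y} := by
  refine Submodule.eq_of_le_of_finrank_le ?_ ?_
  · rw [Submodule.span_le]; rintro z (rfl | rfl); exacts [hd, hw]
  · have h1 := Submodule.finrank_sup_span_singleton hind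
    rw [finrank_span_singleton hd0, ← Submodule.span_union] at h1
    exact (finrank_span_pair_le x y).trans (le_of_eq h1.symm)

theorem Root.mem_q {x y z : V} (h : Root P M x y) (hz : z ∈ Submodule.span F {x, y}) :
    P.q z ∈ P.Λ := by
  obtain ⟨s, t, rfl⟩ := Submodule.mem_span_pair.1 hz
  exact sing_add_smul h.q1 h.q2 h.perp s t

theorem B_of_mem_pair {x y z d : V} (hz : z ∈ Submodule.span F {x, y}) (h1 : P.B d x = 0)
    (h2 : P.B d y = 0) : P.B d z = 0 := by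
  obtain ⟨s, t, rfl⟩ := Submodule.mem_span_pair.1 hz
  simp [h1, h2]

theorem Root.mem_B {x y z z' : V} (h : Root P M x y) (hz : z ∈ Submodule.span F {x, y})
    (hz' : z' ∈ Submodule.span F {x, y}) : P.B z z' = 0 :=
  B_of_mem_pair hz' (P.eq_zero_symm (B_of_mem_pair hz (P.self_eq_zero h.q1) h.perp))
    (P.eq_zero_symm (B_of_mem_pair hz (P.eq_zero_symm h.perp) (P.self_eq_zero h.q2)))

theorem Root.change (hε : P.ε = 1) {x y d : V} (h : Root P M x y)
    (hd : d ∈ Submodule.span F {x, y}) (hd0 : d ≠ 0) :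
    ∃ w, Root P M d w ∧ Submodule.span F {d, w} = Submodule.span F {x, y} := by
  obtain ⟨α, β, e⟩ := Submodule.mem_span_pair.1 hd
  have aux : ∀ w ∈ Submodule.span F {x, y}, w ∉ F ∙ d → (∀ z, eu P x y 0 z = eu P d w 0 z) →
      ∃ w, Root P M d w ∧ Submodule.span F {d, w} = Submodule.span F {x, y} :=
    fun w hw hind hz => ⟨w, ⟨h.mem_q hd, h.mem_q hw, h.mem_B hd hw, hd0, hind, h.has.congr hz⟩,
      span_pair_eq_of_mem hd hw hd0 hind⟩
  by_cases hα : α = 0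
  · have hβ : β ≠ 0 := by rintro rfl; exact hd0 (by simp [← e, hα])
    refine aux (-β⁻¹ • x) (Submodule.smul_mem _ _ (left_mem_pair x y)) (fun hh => ?_) fun z => ?_
    · obtain ⟨t, ht⟩ := Submodule.mem_span_singleton.1 hh
      have := (indep_of_notMem h.ne h.ind (s := β⁻¹) (t := t * β) (by
        rw [← e, hα] at ht
        linear_combination (norm := module) ht)).1
      exact hβ (by simpa using this)
    · rw [eu_root hε, eu_root hε, ← e, hα]
      simp only [zero_smul, zero_add, B_smul_left, RingHom.id_apply, smul_smul]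
      have e1 : -β⁻¹ * P.B x z * β = -P.B x z := by field_simp
      have e2 : β * P.B y z * -β⁻¹ = -P.B y z := by field_simp
      rw [e1, e2]; module
  · refine aux (α⁻¹ • y) (Submodule.smul_mem _ _ (right_mem_pair x y)) (fun hh => ?_) fun z => ?_
    · obtain ⟨t, ht⟩ := Submodule.mem_span_singleton.1 hh
      have := indep_of_notMem h.ne h.ind (s := t * α) (t := t * β - α⁻¹) (by
        rw [← e] at ht
        linear_combination (norm := module) ht)
      have ht0 : t = 0 := (mul_eq_zero.1 this.1).resolve_right hα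
      have := this.2
      rw [ht0] at this
      exact hα (by simpa using this)
    · rw [eu_root hε, eu_root hε, ← e]
      simp only [map_add, LinearMap.add_apply, B_smul_left, RingHom.id_apply, smul_smul, smul_add,
        add_mul]
      have e1 : α⁻¹ * P.B y z * α = P.B y z := by field_simp
      have e2 : α * P.B x z * α⁻¹ = P.B x z := by field_simp
      rw [e1, e2]; module

theorem Root.conj (hMI : M ≤ P.Isom) {x y : V} (h : Root P M x y) {g : V ≃ₗ[F] V} (hg : g ∈ M) :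
    Root P M (g x) (g y) :=
  ⟨isom_q (hMI hg) h.q1, isom_q (hMI hg) h.q2, by rw [(hMI hg).1, h.perp], by simpa using h.ne,
    fun hh => h.ind (by
      obtain ⟨t, ht⟩ := Submodule.mem_span_singleton.1 hh
      exact Submodule.mem_span_singleton.2 ⟨t, g.injective (by rw [map_smul, ht])⟩),
    has_eu_conj h.has hg (hMI hg)⟩

theorem exists_mem_pair_ker {x y : V} (hx : x ≠ 0) (hy : y ∉ F ∙ x) (φ : Dual F V) :
    ∃ z ∈ Submodule.span F {x, y}, z ≠ 0 ∧ φ z = 0 := by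
  by_cases h : φ x = 0
  · exact ⟨x, left_mem_pair x y, hx, h⟩
  · refine ⟨(-φ y) • x + φ x • y, Submodule.mem_span_pair.2 ⟨_, _, rfl⟩,
      fun h0 => h (indep_of_notMem hx hy h0).2, ?_⟩
    simp [mul_comm]

theorem mem_span_of_ker {x y z e : V} (he : e ∈ Submodule.span F {x, y})
    (hz : z ∈ Submodule.span F {x, y}) (he0 : e ≠ 0) {φ : Dual F V} (h1 : φ e = 0) (h2 : φ z = 0)
    (h3 : ¬ (φ x = 0 ∧ φ y = 0)) : z ∈ F ∙ e := by
  by_contra hh
  apply h3
  have := span_pair_eq_of_mem he hz he0 hh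
  have hle : Submodule.span F {x, y} ≤ LinearMap.ker φ := by
    rw [← this, Submodule.span_le]; rintro w (rfl | rfl); exacts [h1, h2]
  exact ⟨hle (left_mem_pair x y), hle (right_mem_pair x y)⟩

/-- The orthogonal case. -/
theorem RatPQ.le_ratNorm_of_orth (h : RatPQ P b F₀) (hε : P.ε = 1) (hk : RIso P b F₀ k)
    (hn : k + 4 ≤ Fintype.card ι) (hM : ratStab b F₀ ⊓ EG P ≤ M) (hMI : M ≤ P.Isom)
    (hI : ∀ d w, RS P b F₀ d → InA P M d w → ∃ t : F, Rat b F₀ (w + t • d)) :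
    M ≤ ratNorm b F₀ := by
  have rroot : ∀ d d', RS P b F₀ d → RS P b F₀ d' → P.B d d' = 0 → d' ∉ F ∙ d → Root P M d d' :=
    fun d d' hd hd' hdd hind => ⟨hd.sing, hd'.sing, hdd, hd.ne, hind,
      (h.has_eu_rat hd hd'.rat hdd F₀.zero_mem (by simpa using hd'.sing)).mono hM⟩
  have A1 : ∀ x y d, Root P M x y → d ∈ Submodule.span F {x, y} → Rat b F₀ d → d ≠ 0 →
      RatSub b F₀ (Submodule.span F {x, y}) := by
    intro x y d hxy hd hd1 hd0
    obtain ⟨w, hw, e⟩ := hxy.change hε hd hd0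
    obtain ⟨t, ht⟩ := hI d w ⟨hd1, hd0, hw.q1⟩ ⟨hw.perp, 0, by simpa using hw.q2, hw.has⟩
    rw [← e, Set.pair_comm, ← span_pair_smul_add one_ne_zero t, one_smul]
    exact ratSub_pair ht.ratPt hd1.ratPt
  have fixes : ∀ x y d v, Root P M x y → RS P b F₀ d → P.B d x = 0 → P.B d y = 0 → Rat b F₀ v →
      P.B d v = 0 → ∃ t : F, Rat b F₀ (P.B y v • x - P.B x v • y + t • d) := by
    intro x y d v hxy hd h1 h2 hv hdv
    obtain ⟨j, hj, ej⟩ := hxy.has
    obtain ⟨t, ht⟩ := rat_of_fix h hM hMI hI hd hj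
      (by rw [ej]; exact eu_fix _ (P.eq_zero_symm h1) (P.eq_zero_symm h2)) hv hdv
    refine ⟨t, ?_⟩
    convert ht using 2
    rw [ej, eu_root hε]; module
  have hz0 : ∀ x y v, Root P M x y → (P.B x v ≠ 0 ∨ P.B y v ≠ 0) →
      P.B y v • x - P.B x v • y ≠ 0 := by
    intro x y v hxy hv h0
    have := indep_of_notMem hxy.ne hxy.ind (s := P.B y v) (t := -P.B x v) (by
      rw [neg_smul, ← sub_eq_add_neg]; exact h0)
    rcases hv with hv | hv
    · exact hv (by simpa using this.2)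
    · exact hv this.1
  have hzm : ∀ x y v : V, P.B y v • x - P.B x v • y ∈ Submodule.span F {x, y} := fun x y v =>
    Submodule.sub_mem _ (Submodule.smul_mem _ _ (left_mem_pair x y))
      (Submodule.smul_mem _ _ (right_mem_pair x y))
  have A : ∀ x y d, Root P M x y → RS P b F₀ d → P.B d x = 0 → P.B d y = 0 →
      RatSub b F₀ (Submodule.span F {x, y}) := by
    intro x y d hxy hd h1 h2
    by_cases hdm : d ∈ Submodule.span F {x, y}
    · exact A1 x y d hxy hdm hd.rat hd.ne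
    obtain ⟨v, hv, hv1, hv2⟩ := h.exists_rat_B_ne (ratSub_single hd.rat.ratPt) (u := x)
      (fun hh => hdm (single_le_pair_left x y (mem_span_single_symm hh hxy.ne)))
    obtain ⟨t, ht⟩ := fixes x y d v hxy hd h1 h2 hv (mem_perp_singleton.1 hv1)
    have hz := hz0 x y v hxy (Or.inl hv2)
    have hzm' := hzm x y v
    set z := P.B y v • x - P.B x v • y
    have hind : z + t • d ∉ F ∙ d := fun hh => hdm (by
      have : z ∈ F ∙ d := by
        simpa using Submodule.sub_mem _ hh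
          (Submodule.smul_mem _ t (Submodule.mem_span_singleton_self d))
      exact (Submodule.span_singleton_le_iff_mem _ _).2 hzm' (mem_span_single_symm this hz))
    have hdz : P.B d z = 0 := B_of_mem_pair hzm' h1 h2
    have hd' : RS P b F₀ (z + t • d) := ⟨ht, fun h0 => hind (by simp [h0]), by
      simpa using sing_add_smul (hxy.mem_q hzm') hd.sing (P.eq_zero_symm hdz) 1 t⟩
    have h1' : P.B (z + t • d) x = 0 := by simp [h1, hxy.mem_B hzm' (left_mem_pair x y)]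
    have h2' : P.B (z + t • d) y = 0 := by simp [h2, hxy.mem_B hzm' (right_mem_pair x y)]
    set d' := z + t • d
    by_cases hx : x ∈ Submodule.span F {d, d'} ∧ y ∈ Submodule.span F {d, d'}
    · rw [span_pair_eq_of_mem hx.1 hx.2 hxy.ne hxy.ind]
      exact ratSub_pair hd.rat.ratPt hd'.rat.ratPt
    obtain ⟨w, hw, hw1, hw2⟩ : ∃ w, Rat b F₀ w ∧ w ∈ perp P (Submodule.span F {d, d'}) ∧
        (P.B x w ≠ 0 ∨ P.B y w ≠ 0) := by
      rcases not_and_or.1 hx with hx | hx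
      · obtain ⟨w, h3, h4, h5⟩ := h.exists_rat_B_ne (ratSub_pair hd.rat.ratPt hd'.rat.ratPt) hx
        exact ⟨w, h3, h4, Or.inl h5⟩
      · obtain ⟨w, h3, h4, h5⟩ := h.exists_rat_B_ne (ratSub_pair hd.rat.ratPt hd'.rat.ratPt) hx
        exact ⟨w, h3, h4, Or.inr h5⟩
    obtain ⟨s, hs⟩ := fixes x y d w hxy hd h1 h2 hw (mem_perp_pair.1 hw1).1
    obtain ⟨s', hs'⟩ := fixes x y d' w hxy hd' h1' h2' hw (mem_perp_pair.1 hw1).2
    have h3 : s' ∈ F₀ := mem_of_rat_add (ratSub_single hd.rat.ratPt) hd'.rat hind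
      (Submodule.smul_mem _ (-s) (Submodule.mem_span_singleton_self d))
      (by convert hs'.sub hs using 1; module)
    refine A1 x y _ hxy (hzm x y w) ?_ (hz0 x y w hxy hw2)
    simpa using hs'.sub (hd'.rat.smul h3)
  have B0 : ∀ x y d₁ d₂, Root P M x y → RS P b F₀ d₁ → RS P b F₀ d₂ → P.B d₁ d₂ = 0 →
      d₂ ∉ F ∙ d₁ → P.B d₁ x = 0 → P.B d₂ x = 0 → x ∉ Submodule.span F {d₁, d₂} →
      RatSub b F₀ (Submodule.span F {x, y}) := by
    intro x y d₁ d₂ hxy h1 h2 h12 hind h1x h2x hx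
    by_cases h1y : P.B d₁ y = 0
    · exact A x y d₁ hxy h1 h1x h1y
    have hr := rroot d₁ d₂ h1 h2 h12 hind
    obtain ⟨j, hj, ej⟩ := hr.has
    have hp0 := hz0 d₁ d₂ y hr (Or.inl h1y)
    have hpm := hzm d₁ d₂ y
    have hpy : P.B (P.B d₂ y • d₁ - P.B d₁ y • d₂) y = 0 := by simp [mul_comm]
    set p := P.B d₂ y • d₁ - P.B d₁ y • d₂ with hp
    have hpx : P.B x p = 0 := B_of_mem_pair hpm (P.eq_zero_symm h1x) (P.eq_zero_symm h2x)
    have hc := hxy.conj hMI hj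
    have e1 : j x = x := by rw [ej]; exact eu_fix _ h1x h2x
    have e2 : j y = y + p := by rw [ej, eu_root hε, hp]; abel
    rw [e1, e2] at hc
    have hxp : Root P M x p := by
      refine ⟨hxy.q1, hr.mem_q hpm, hpx, hxy.ne,
        fun hh => hx ((Submodule.span_singleton_le_iff_mem _ _).2 hpm (mem_span_single_symm hh hp0)),
        ?_⟩
      have := has_eu_add hxy.q1 hc.perp (by simp [hxy.perp]) hc.has
        (has_eu_neg hxy.q1 hxy.perp hxy.has)
      simpa [hpy, P.self_eq_zero hxy.q2] using this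
    have h3 := A x p d₁ hxp h1 h1x (hr.mem_B (left_mem_pair _ _) hpm)
    obtain ⟨c, p₀, hp₀, e⟩ := ratPt_of_two_lines (ratSub_pair h1.rat.ratPt h2.rat.ratPt) h3 hpm hx
      (by rw [Set.pair_comm])
    have hc0 : c ≠ 0 := by rintro rfl; exact hp0 (by simpa using e)
    have e' : p₀ = c⁻¹ • p := by rw [e]; simp [smul_smul, hc0]
    refine A x y p₀ hxy ⟨hp₀, fun h0 => hp0 (by simp [e, h0]), ?_⟩ ?_ ?_
    · rw [e']; exact P.q_smul_mem (hr.mem_q hpm) _
    · rw [e', B_smul_left, P.eq_zero_symm hpx, mul_zero]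
    · rw [e', B_smul_left, hpy, mul_zero]
  have B : ∀ x y d₁ d₂ p, Root P M x y → RS P b F₀ d₁ → RS P b F₀ d₂ → P.B d₁ d₂ = 0 →
      d₂ ∉ F ∙ d₁ → p ∈ Submodule.span F {d₁, d₂} → p ≠ 0 → P.B p x = 0 → P.B p y = 0 →
      RatSub b F₀ (Submodule.span F {x, y}) := by
    intro x y d₁ d₂ p hxy h1 h2 h12 hind hp hp0 hpx hpy
    by_cases h1m : P.B d₁ x = 0 ∧ P.B d₁ y = 0
    · exact A x y d₁ hxy h1 h1m.1 h1m.2
    obtain ⟨z, hz, hz0, h1z⟩ := exists_mem_pair_ker hxy.ne hxy.ind (P.B d₁)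
    obtain ⟨α, β, rfl⟩ := Submodule.mem_span_pair.1 hp
    have hβ : β ≠ 0 := by
      rintro rfl
      have hα : α ≠ 0 := by rintro rfl; simp at hp0
      exact h1m ⟨by simpa [hα] using hpx, by simpa [hα] using hpy⟩
    have h2z : P.B d₂ z = 0 := by simpa [h1z, hβ] using B_of_mem_pair hz hpx hpy
    obtain ⟨w, hw, e⟩ := hxy.change hε hz hz0
    rw [← e]
    by_cases hzl : z ∈ Submodule.span F {d₁, d₂}
    swap
    · exact B0 z w d₁ d₂ hw h1 h2 h12 hind h1z h2z hzl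
    obtain ⟨d₃, h3, h13, h23, h3l⟩ := h.exists_rs_perp_notMem hk hn h1.rat.ratPt h2.rat.ratPt
    refine B0 z w d₁ d₃ hw h1 h3 h13 (fun hh => h3l (single_le_pair_left _ _ hh)) h1z
      (B_of_mem_pair hzl (P.eq_zero_symm h13) (P.eq_zero_symm h23)) fun hh => ?_
    obtain ⟨s, t, rfl⟩ := Submodule.mem_span_pair.1 hh
    have ht : t = 0 := by
      by_contra ht
      apply h3l
      have : d₃ = t⁻¹ • ((s • d₁ + t • d₃) - s • d₁) := by simp [smul_smul, ht]
      rw [this]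
      exact Submodule.smul_mem _ _ (Submodule.sub_mem _ hzl
        (Submodule.smul_mem _ _ (left_mem_pair _ _)))
    subst ht
    have hs : s ≠ 0 := by rintro rfl; simp at hz0
    exact h1m ⟨by simpa [hs] using hxy.mem_B hz (left_mem_pair x y),
      by simpa [hs] using hxy.mem_B hz (right_mem_pair x y)⟩
  have C : ∀ g ∈ M, ∀ d₁ d₂, RS P b F₀ d₁ → RS P b F₀ d₂ → P.B d₁ d₂ = 0 → d₂ ∉ F ∙ d₁ →
      RatSub b F₀ (Submodule.span F {g d₁, g d₂}) → g ∈ ratNorm b F₀ := by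
    intro g hg d₁ d₂ h1 h2 h12 hind hR
    have hr := (rroot d₁ d₂ h1 h2 h12 hind).conj hMI hg
    obtain ⟨e₁, he₁, he₁', he₁0⟩ := hR.exists_rat (left_mem_pair _ _) hr.ne
    obtain ⟨e₂, he₂, he₂', he₂0⟩ := hR.exists_rat_notMem (U := F ∙ e₁) (fun hh => hr.ind
      ((Submodule.span_singleton_le_iff_mem _ _).2
        (mem_span_single_symm (hh (left_mem_pair _ _)) hr.ne) (hh (right_mem_pair _ _))))
    have he := span_pair_eq_of_mem he₁ he₂ he₁0 he₂0
    have lines : ∀ a a' d, RS P b F₀ a → RS P b F₀ a' → P.B a a' = 0 → a' ∉ F ∙ a →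
        d ∈ Submodule.span F {d₁, d₂} → d ≠ 0 → P.B d a = 0 → P.B d a' = 0 →
        RatSub b F₀ (Submodule.span F {g a, g a'}) := by
      intro a a' d ha ha' haa hia hd hd0 hda hda'
      refine B _ _ e₁ e₂ (g d) ((rroot a a' ha ha' haa hia).conj hMI hg)
        ⟨he₁', he₁0, hr.mem_q he₁⟩ ⟨he₂', fun h0 => he₂0 (by simp [h0]), hr.mem_q he₂⟩
        (hr.mem_B he₁ he₂) he₂0 ?_ (by simpa using hd0) (by rw [(hMI hg).1, hda])
        (by rw [(hMI hg).1, hda'])
      rw [he]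
      obtain ⟨s, t, rfl⟩ := Submodule.mem_span_pair.1 hd
      exact Submodule.mem_span_pair.2 ⟨s, t, by simp⟩
    refine h.mem_ratNorm_of_sing hk (by omega) fun a ha => ?_
    obtain ⟨z, hz, hz0, haz⟩ := exists_mem_pair_ker h1.ne hind (P.B a)
    obtain ⟨d, hd, hd', hd0⟩ := ((ratSub_pair h1.rat.ratPt h2.rat.ratPt).inf
      (h.ratD ha.rat).ratSub_ker).exists_rat (x := z) ⟨hz, haz⟩ hz0
    have had : P.B a d = 0 := hd.2
    have hds : P.q d ∈ P.Λ := (rroot d₁ d₂ h1 h2 h12 hind).mem_q hd.1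
    obtain ⟨a₁, ha₁, haa₁, hda₁, ha₁l⟩ := h.exists_rs_perp_notMem hk hn ha.rat.ratPt hd'.ratPt
    obtain ⟨a₂, ha₂, haa₂, hda₂, ha₂l⟩ : ∃ a₂, RS P b F₀ a₂ ∧ P.B a a₂ = 0 ∧ P.B d a₂ = 0 ∧
        a₂ ∉ Submodule.span F {a, a₁} := by
      by_cases hda : d ∈ F ∙ a
      · obtain ⟨a₂, ha₂, haa₂, -, ha₂l⟩ := h.exists_rs_perp_notMem hk hn ha.rat.ratPt ha₁.rat.ratPt
        obtain ⟨t, rfl⟩ := Submodule.mem_span_singleton.1 hda
        exact ⟨a₂, ha₂, haa₂, by simp [haa₂], ha₂l⟩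
      · refine ⟨d, ⟨hd', hd0, hds⟩, had, P.self_eq_zero hds, fun hh => ha₁l ?_⟩
        rw [span_pair_eq_of_mem (left_mem_pair a a₁) hh ha.ne hda]
        exact right_mem_pair _ _
    refine ratPt_of_two_lines
      (lines a a₁ d ha ha₁ haa₁ (fun hh => ha₁l (single_le_pair_left _ _ hh)) hd.1 hd0
        (P.eq_zero_symm had) hda₁)
      (lines a a₂ d ha ha₂ haa₂ (fun hh => ha₂l (single_le_pair_left _ _ hh)) hd.1 hd0
        (P.eq_zero_symm had) hda₂) (left_mem_pair _ _) (fun hh => ha₂l ?_) rfl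
    obtain ⟨s, t, e⟩ := Submodule.mem_span_pair.1 hh
    exact Submodule.mem_span_pair.2 ⟨s, t, g.injective (by simpa using e)⟩
  intro g hg
  obtain ⟨d₁, h1, -⟩ := h.exists_rs_perp hk (by omega) rat_zero.ratPt rat_zero.ratPt
  obtain ⟨d₂, h2, h12, -, h2l⟩ := h.exists_rs_perp_notMem hk hn h1.rat.ratPt h1.rat.ratPt
  have hi2 : d₂ ∉ F ∙ d₁ := fun hh => h2l (single_le_pair_left _ _ hh)
  obtain ⟨d₃, h3, h13, h23, h3l⟩ := h.exists_rs_perp_notMem hk hn h1.rat.ratPt h2.rat.ratPt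
  have hi3 : d₃ ∉ F ∙ d₁ := fun hh => h3l (single_le_pair_left _ _ hh)
  refine C g hg d₁ d₂ h1 h2 h12 hi2 ?_
  by_contra hm
  have hr := (rroot d₁ d₂ h1 h2 h12 hi2).conj hMI hg
  obtain ⟨e₁, he₁, he₁0, h1e⟩ := exists_mem_pair_ker hr.ne hr.ind (P.B d₁)
  obtain ⟨f₁, hef, e⟩ := hr.change hε he₁ he₁0
  rw [← e] at hm
  have opp : ∀ d d' p, RS P b F₀ d → RS P b F₀ d' → P.B d d' = 0 → d' ∉ F ∙ d →
      p ∈ Submodule.span F {d, d'} → P.B p e₁ = 0 → P.B p f₁ = 0 → p = 0 := by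
    intro d d' p hd hd' hdd hind hp hpe hpf
    by_contra hp0
    exact hm (B e₁ f₁ d d' p hef hd hd' hdd hind hp hp0 hpe hpf)
  have h1f : P.B d₁ f₁ ≠ 0 := fun h0 => h1.ne (opp d₁ d₂ d₁ h1 h2 h12 hi2 (left_mem_pair _ _) h1e h0)
  have hde : ∀ d, RS P b F₀ d → P.B d₁ d = 0 → d ∉ F ∙ d₁ → P.B d e₁ ≠ 0 := by
    intro d hd h1d hind h0
    exact hz0 d₁ d f₁ (rroot d₁ d h1 hd h1d hind) (Or.inl h1f)
      (opp d₁ d _ h1 hd h1d hind (hzm d₁ d f₁) (by simp [h1e, h0]) (by simp [mul_comm]))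
  obtain ⟨y, hy, ey⟩ := hef.has
  have key : ∀ d, RS P b F₀ d → P.B d₁ d = 0 → d ∉ F ∙ d₁ → ∃ j ∈ M,
      (∃ c : F, c ≠ 0 ∧ j d₁ = c • e₁) ∧ ∀ p ∈ Submodule.span F {d₁, d},
        ∀ e ∈ Submodule.span F {e₁, f₁}, p ≠ 0 → e ≠ 0 → P.B p e = 0 →
          j ∈ stab (Submodule.span F {p, e}) := by
    intro d hd h1d hind
    have hrd := rroot d₁ d h1 hd h1d hind
    obtain ⟨x, hx, ex⟩ := hrd.has
    obtain ⟨j, hj, hj'⟩ := exists_map_center (x := x) (y := y) (d := d₁) (u := e₁)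
      (α := P.B d e₁) (β := P.B f₁ d₁)
      (fun s t h0 => by
        have h4 := congrArg (P.B f₁) h0
        simp only [map_add, map_smul, P.eq_zero_symm hef.perp, smul_eq_mul, mul_zero, add_zero,
          map_zero, mul_eq_zero] at h4
        have hs := h4.resolve_right (B_ne_zero_symm h1f)
        rw [hs, zero_smul, zero_add, smul_eq_zero] at h0
        exact ⟨hs, h0.resolve_right he₁0⟩)
      (by rw [ex]; exact eu_fix _ h1.self (P.eq_zero_symm h1d))
      (by rw [ex, eu_root hε, h1e]; simp)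
      (by rw [ey]; exact eu_fix _ (P.self_eq_zero hef.q1) (P.eq_zero_symm hef.perp))
      (by rw [ey, eu_root hε, P.eq_zero_symm h1e]; simp) (hde d hd h1d hind) (B_ne_zero_symm h1f)
    refine ⟨j, closure_pair_le hx hy hj, hj', fun p hp e he hp0 he0 hpe => ?_⟩
    have hxp : x p = p := by
      rw [ex]
      exact eu_fix _ (hrd.mem_B (left_mem_pair _ _) hp) (hrd.mem_B (right_mem_pair _ _) hp)
    have hye : y e = e := by
      rw [ey]
      exact eu_fix _ (hef.mem_B (left_mem_pair _ _) he) (hef.mem_B (right_mem_pair _ _) he)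
    have hxe : P.B d e • d₁ - P.B d₁ e • d ∈ F ∙ p := by
      refine mem_span_of_ker hp (hzm d₁ d e) hp0 (φ := P.B e) (P.eq_zero_symm hpe)
        (by simp [B_comm hε e, mul_comm]) fun ⟨k1, k2⟩ => ?_
      obtain ⟨s, t, rfl⟩ := Submodule.mem_span_pair.1 he
      have ht : t = 0 := by simpa [P.eq_zero_symm h1e, B_ne_zero_symm h1f] using k1
      have hs : s = 0 := by simpa [ht, B_ne_zero_symm (hde d hd h1d hind)] using k2
      simp [hs, ht] at he0
    have hyp : P.B f₁ p • e₁ - P.B e₁ p • f₁ ∈ F ∙ e :=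
      mem_span_of_ker he (hzm e₁ f₁ p) he0 (φ := P.B p) hpe
        (by simp [B_comm hε p, mul_comm]) fun ⟨k1, k2⟩ => hp0 (opp d₁ d p h1 hd h1d hind hp k1 k2)
    refine closure_pair_le (mem_stab_of_maps fun z hz => ?_) (mem_stab_of_maps fun z hz => ?_) hj
    · obtain ⟨s, t, rfl⟩ := Submodule.mem_span_pair.1 hz
      rw [map_add, map_smul, map_smul, hxp, ex, eu_root hε, add_sub_assoc]
      exact Submodule.add_mem _ (Submodule.smul_mem _ _ (left_mem_pair _ _)) (Submodule.smul_mem _ _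
        (Submodule.add_mem _ (right_mem_pair _ _) (single_le_pair_left _ _ hxe)))
    · obtain ⟨s, t, rfl⟩ := Submodule.mem_span_pair.1 hz
      rw [map_add, map_smul, map_smul, hye, ey, eu_root hε, add_sub_assoc]
      exact Submodule.add_mem _ (Submodule.smul_mem _ _
        (Submodule.add_mem _ (left_mem_pair _ _) (single_le_pair_right _ _ hyp)))
        (Submodule.smul_mem _ _ (right_mem_pair _ _))
  obtain ⟨j, hj, ⟨c, hc, ej⟩, hjs⟩ := key d₂ h2 h12 hi2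
  obtain ⟨j', hj', ⟨c', hc', ej'⟩, hjs'⟩ := key d₃ h3 h13 hi3
  have h2e := hde d₂ h2 h12 hi2
  have he₂m := hzm e₁ f₁ d₂
  have he₂0 := hz0 e₁ f₁ d₂ hef (Or.inl (B_ne_zero_symm h2e))
  have h2e₂ : P.B d₂ (P.B f₁ d₂ • e₁ - P.B e₁ d₂ • f₁) = 0 := by simp [B_comm hε d₂, mul_comm]
  have h1e₂ : P.B d₁ (P.B f₁ d₂ • e₁ - P.B e₁ d₂ • f₁) ≠ 0 := by
    simp [h1e, h1f, B_ne_zero_symm h2e]
  set e₂ := P.B f₁ d₂ • e₁ - P.B e₁ d₂ • f₁
  have hr3 := rroot d₁ d₃ h1 h3 h13 hi3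
  have hdm := hzm d₁ d₃ e₂
  have hd0 := hz0 d₁ d₃ e₂ hr3 (Or.inl h1e₂)
  have hde₂ : P.B (P.B d₃ e₂ • d₁ - P.B d₁ e₂ • d₃) e₂ = 0 := by simp [mul_comm]
  have hd2 : P.B d₃ e₂ • d₁ - P.B d₁ e₂ • d₃ ∉ F ∙ d₂ := fun hh => h3l (by
    have : d₃ = (P.B d₁ e₂)⁻¹ • (P.B d₃ e₂ • d₁ - (P.B d₃ e₂ • d₁ - P.B d₁ e₂ • d₃)) := by
      simp [smul_smul, h1e₂]
    rw [this]
    exact Submodule.smul_mem _ _ (Submodule.sub_mem _ (Submodule.smul_mem _ _ (left_mem_pair _ _))
      (single_le_pair_right _ _ hh)))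
  set d := P.B d₃ e₂ • d₁ - P.B d₁ e₂ • d₃
  obtain ⟨α, β, e1⟩ := Submodule.mem_span_pair.1
    (((hjs d₂ (right_mem_pair _ _) e₂ he₂m h2.ne he₂0 h2e₂) d₂).1 (left_mem_pair _ _))
  have hα : α = 0 := by
    have k1 : P.B (j d₁) (j d₂) = 0 := by rw [(hMI hj).1, h12]
    rw [ej, ← e1] at k1
    simpa [hc, B_ne_zero_symm h2e, hef.mem_B (left_mem_pair _ _) he₂m] using k1
  obtain ⟨α', β', e2⟩ := Submodule.mem_span_pair.1
    (((stab _).inv_mem (hjs' d hdm e₂ he₂m hd0 he₂0 hde₂) e₂).1 (right_mem_pair _ _))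
  have hβ' : β' = 0 := by
    have k1 : P.B d₁ (j'⁻¹ e₂) = 0 := by
      rw [← (hMI hj').1, le_apply_inv, ej', B_smul_left, hef.mem_B (left_mem_pair _ _) he₂m,
        mul_zero]
    rw [← e2] at k1
    simpa [hr3.mem_B (left_mem_pair _ _) hdm, h1e₂] using k1
  have hjd₂ : (j'⁻¹ * j) d₂ = (β * α') • d := by
    rw [le_mul_apply, ← e1, hα, zero_smul, zero_add, map_smul, ← e2, hβ', zero_smul, add_zero,
      smul_smul]
  have hjd₁ : (j'⁻¹ * j) d₁ = (c / c') • d₁ := by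
    apply j'.injective
    rw [le_mul_apply, le_apply_inv, map_smul, ej, ej', smul_smul, div_mul_cancel₀ _ hc']
  have hjM : j'⁻¹ * j ∈ M := M.mul_mem (M.inv_mem hj') hj
  have hrj := (rroot d₁ d₂ h1 h2 h12 hi2).conj hMI hjM
  have hN := C _ hjM d₁ d₂ h1 h2 h12 hi2 (by
    rw [span_pair_eq_of_mem (x := d₁) (y := d₃) (hjd₁ ▸ Submodule.smul_mem _ _ (left_mem_pair _ _))
      (hjd₂ ▸ Submodule.smul_mem _ _ hdm) hrj.ne hrj.ind]
    exact ratSub_pair h1.rat.ratPt h3.rat.ratPt)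
  have hβα : β * α' ≠ 0 := fun h0 => h2.ne ((j'⁻¹ * j).injective (by rw [hjd₂, h0]; simp))
  obtain ⟨s, d₄, hd₄, e4⟩ := (hjd₂ ▸ h2.rat.ratPt.apply hN : RatPt b F₀ ((β * α') • d)).of_smul hβα
  have hs : s ≠ 0 := by rintro rfl; exact hd0 (by simpa using e4)
  have e4' : d₄ = s⁻¹ • d := by rw [e4]; simp [smul_smul, hs]
  have h4 : RS P b F₀ d₄ := ⟨hd₄, fun h0 => hd0 (by simp [e4, h0]), by
    rw [e4']; exact P.q_smul_mem (hr3.mem_q hdm) _⟩
  have h24 : P.B d₂ d₄ = 0 := by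
    rw [e4', map_smul, B_of_mem_pair hdm (P.eq_zero_symm h12) h23, smul_zero]
  have hi4 : d₄ ∉ F ∙ d₂ := fun hh => hd2 (e4 ▸ Submodule.smul_mem _ _ hh)
  have h4e₂ : P.B d₄ e₂ = 0 := by rw [e4', B_smul_left, hde₂, mul_zero]
  have hpe : P.B (P.B d₄ e₁ • d₂ - P.B d₂ e₁ • d₄) e₁ = 0 := by simp [mul_comm]
  have hpe₂ : P.B (P.B d₄ e₁ • d₂ - P.B d₂ e₁ • d₄) e₂ = 0 := by simp [h2e₂, h4e₂]
  refine hz0 d₂ d₄ e₁ (rroot d₂ d₄ h2 h4 h24 hi4) (Or.inl h2e)
    (opp d₂ d₄ _ h2 h4 h24 hi4 (hzm d₂ d₄ e₁) hpe ?_)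
  generalize P.B d₄ e₁ • d₂ - P.B d₂ e₁ • d₄ = p at hpe hpe₂
  simpa [e₂, hpe, B_ne_zero_symm h2e] using hpe₂

end H11.Sub
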