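import Mathlib
import Cfsg.Agent.Base
import Cfsg.Agent.Lib.Subfld.PQ3
import Cfsg.Agent.Lib.ClassMax.Ident

/-!
Subfield subgroups of prime index are maximal in `Sp`, `SU`, `Ω`.
-/

set_option autoImplicit false
set_option linter.unusedSectionVars false

namespace H11.Sub

open Module Cfsg H97 H28

section Scale

variable {F V : Type*} [Field F] [AddCommGroup V] [Module F V] {σ : F →+* F}

/-- Pseudo-quadratic data multiplied by a scalar `ζ` with `σ ζ = ± ζ`. -/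
def scale (P : PQ F V σ) (ζ δ : F) (hζ : ζ ≠ 0) (hδ : δ * δ = 1) (hσδ : σ δ = δ)
    (hσζ : σ ζ = δ * ζ) : PQ F V σ where
  B := ζ • P.B
  ε := P.ε * δ
  q := fun x => ζ * P.q x
  Λ := P.Λ.comap (AddMonoidHom.mulLeft ζ⁻¹)
  σσ := P.σσ
  σε := by rw [map_mul, P.σε, hσδ]
  εε := by linear_combination (δ * δ) * P.εε + hδ
  symm := fun x y => by
    simp only [LinearMap.smul_apply, smul_eq_mul, map_mul, hσζ]
    rw [P.symm x y]
    linear_combination (-(ζ * P.ε * σ (P.B x y))) * hδ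
  q_add := fun x y => by
    change ζ⁻¹ * _ ∈ P.Λ
    convert P.q_add x y using 1
    simp only [LinearMap.smul_apply, smul_eq_mul]
    field_simp
  q_smul := fun a x => by
    change ζ⁻¹ * _ ∈ P.Λ
    convert P.q_smul a x using 1
    field_simp
  self := fun x => by
    simp only [LinearMap.smul_apply, smul_eq_mul, map_mul, hσζ]
    rw [P.self]
    linear_combination (-(ζ * P.ε * σ (P.q x))) * hδ
  tr_mem := fun l hl => by
    have h1 := P.tr_mem _ (show ζ⁻¹ * l ∈ P.Λ from hl)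
    have hδ0 : δ ≠ 0 := left_ne_zero_of_mul_eq_one hδ
    rw [map_mul, map_inv₀, hσζ] at h1
    field_simp at h1
    linear_combination δ * h1 - l * hδ
  norm_mem := fun a l hl => by
    change ζ⁻¹ * _ ∈ P.Λ
    convert P.norm_mem a _ (show ζ⁻¹ * l ∈ P.Λ from hl) using 1
    ring
  sub_mem := fun a => by
    change ζ⁻¹ * _ ∈ P.Λ
    have hδ0 : δ ≠ 0 := left_ne_zero_of_mul_eq_one hδ
    convert P.sub_mem (ζ⁻¹ * a) using 1
    rw [map_mul, map_inv₀, hσζ]
    field_simp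
    linear_combination (-(P.ε * σ a)) * hδ

variable {P : PQ F V σ} {ζ δ : F} {hζ : ζ ≠ 0} {hδ : δ * δ = 1} {hσδ : σ δ = δ}
  {hσζ : σ ζ = δ * ζ}

theorem scale_B (x y : V) : (scale P ζ δ hζ hδ hσδ hσζ).B x y = ζ * P.B x y := rfl

theorem scale_ε : (scale P ζ δ hζ hδ hσδ hσζ).ε = P.ε * δ := rfl

theorem scale_q (x : V) : (scale P ζ δ hζ hδ hσδ hσζ).q x = ζ * P.q x := rfl

theorem mem_scale_Λ {l : F} : l ∈ (scale P ζ δ hζ hδ hσδ hσζ).Λ ↔ ζ⁻¹ * l ∈ P.Λ := Iff.rfl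

theorem scale_sing {x : V} :
    (scale P ζ δ hζ hδ hσδ hσζ).q x ∈ (scale P ζ δ hζ hδ hσδ hσζ).Λ ↔ P.q x ∈ P.Λ := by
  rw [mem_scale_Λ, scale_q, inv_mul_cancel_left₀ hζ]

theorem scale_nd (hP : P.B.SeparatingLeft) : (scale P ζ δ hζ hδ hσδ hσζ).B.SeparatingLeft :=
  fun x hx => hP x fun y => (mul_eq_zero.1 (hx y)).resolve_left hζ

theorem scale_eu (d w : V) (c : F) (x : V) :
    eu (scale P ζ δ hζ hδ hσδ hσζ) d w c x = eu P d (σ ζ • w) (σ ζ * c) x := by
  rw [eu_apply, eu_apply, scale_B, scale_B, scale_ε, B_smul_left, P.σσ, hσζ]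
  module

theorem scale_valid {w : V} {c : F} :
    c - (scale P ζ δ hζ hδ hσδ hσζ).q w ∈ (scale P ζ δ hζ hδ hσδ hσζ).Λ ↔
      σ ζ * c - P.q (σ ζ • w) ∈ P.Λ := by
  have h1 := P.q_smul (σ ζ) w
  have hσ : σ ζ ≠ 0 := σ_ne_zero hζ
  rw [P.σσ] at h1
  rw [mem_scale_Λ, scale_q]
  constructor
  · intro h
    convert P.Λ.sub_mem (P.norm_mem ζ _ h) h1 using 1
    field_simp; ring
  · intro h
    convert P.norm_mem ζ⁻¹ _ (P.Λ.add_mem h h1) using 1
    rw [map_inv₀]; field_simp; ring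

theorem scale_EG : EG (scale P ζ δ hζ hδ hσδ hσζ) = EG P := by
  have hσ : σ ζ ≠ 0 := σ_ne_zero hζ
  apply le_antisymm
  · refine EG_le fun d w c hd hw hc => ?_
    refine (has_eu_EG (scale_sing.1 hd) ?_ (scale_valid.1 hc)).congr fun x => (scale_eu d w c x).symm
    rw [map_smul, (mul_eq_zero.1 hw).resolve_left hζ, smul_zero]
  · refine EG_le fun d w c hd hw hc => ?_
    refine (has_eu_EG (P := scale P ζ δ hζ hδ hσδ hσζ) (w := (σ ζ)⁻¹ • w) (c := (σ ζ)⁻¹ * c)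
      (scale_sing.2 hd) (by rw [scale_B]; simp [hw]) (scale_valid.2 ?_)).congr fun x => ?_
    · simpa [smul_smul, hσ] using hc
    · rw [scale_eu]; simp [smul_smul, hσ]

end Scale

section Iso

variable {F V : Type*} [Field F] [AddCommGroup V] [Module F V] {σ : F →+* F} {ι : Type*}
  [Fintype ι] {P : PQ F V σ} {b : Basis ι F V} {F₀ : Subfield F} [FiniteDimensional F V]
  [Fintype F]

theorem riso_one (h : ∀ x, Rat b F₀ x → P.q x ∈ P.Λ) : RIso P b F₀ 1 := by
  intro X hX h1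
  obtain ⟨x, hx, hx0⟩ := exists_ne_zero_mem h1
  obtain ⟨v, hv, hv1, hv0⟩ := hX.exists_rat hx hx0
  exact ⟨v, hv, hv1, hv0, h v hv1⟩

theorem riso_three (Q₀ : QuadraticForm F₀ V) (h : ∀ x, Rat b F₀ x → Q₀ x = 0 → P.q x ∈ P.Λ) :
    RIso P b F₀ 3 := by
  intro X hX h3
  have := finite_of_basis b
  have : Module.Finite F₀ V := Module.Finite.of_finite
  let W : Submodule F₀ V :=
    { carrier := {x | x ∈ X ∧ Rat b F₀ x}
      zero_mem' := ⟨X.zero_mem, rat_zero⟩
      add_mem' := fun hx hy => ⟨X.add_mem hx.1 hy.1, hx.2.add hy.2⟩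
      smul_mem' := fun c x hx => ⟨X.smul_mem (c : F) hx.1, hx.2.smul c.2⟩ }
  let e := Module.finBasis F₀ W
  have h1 : X ≤ Submodule.span F (Set.range fun i => (e i : V)) := hX.le_of_rat fun v hv hv' => by
    have := congrArg Subtype.val (e.sum_repr ⟨v, hv, hv'⟩)
    simp only [AddSubmonoidClass.coe_finsetSum] at this
    rw [← this]
    exact Submodule.sum_mem _ fun i _ =>
      Submodule.smul_mem _ (e.repr ⟨v, hv, hv'⟩ i : F) (Submodule.subset_span ⟨i, rfl⟩)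
  have h2 := (Submodule.finrank_mono h1).trans (finrank_range_le_card _)
  rw [Fintype.card_fin] at h2
  obtain ⟨v, hv, hv0, hq⟩ := exists_singular_of_three_le Q₀ W (h3.trans h2)
  exact ⟨v, hv.1, hv.2, hv0, h v hv.2 hq⟩

theorem riso_two (h : RatPQ P b F₀) (hε : P.ε = 1) (hiso : ∀ x, P.B x x = 0 → P.q x ∈ P.Λ)
    (hN : ∀ t ∈ F₀, σ t = t → ∃ a ∈ F₀, σ a * a = t) : RIso P b F₀ 2 := by
  intro X hX h2
  obtain ⟨x', hx', hx0'⟩ := exists_ne_zero_mem (X := X) (by omega)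
  obtain ⟨x, hx, hx1, hx0⟩ := hX.exists_rat hx' hx0'
  by_cases h1 : P.B x x = 0
  · exact ⟨x, hx, hx1, hx0, hiso x h1⟩
  have := finrank_inf_ker' X (P.B x)
  obtain ⟨y', hy', hy0'⟩ := exists_ne_zero_mem (X := X ⊓ LinearMap.ker (P.B x)) (by omega)
  obtain ⟨y, hy, hy1, hy0⟩ := (hX.inf (h.ratD hx1).ratSub_ker).exists_rat hy' hy0'
  have hxy : P.B x y = 0 := hy.2
  have hS : ∀ z, σ (P.B z z) = P.B z z := fun z => by
    conv_rhs => rw [P.symm, hε, one_mul]
  obtain ⟨a, ha, ha'⟩ := hN (-(P.B y y) / P.B x x)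
    (F₀.div_mem (F₀.neg_mem (h.B_mem _ _ hy1 hy1)) (h.B_mem _ _ hx1 hx1))
    (by rw [map_div₀, map_neg, hS, hS])
  refine ⟨y + a • x, X.add_mem hy.1 (X.smul_mem a hx), hy1.add (hx1.smul ha), fun h0 => ?_,
    hiso _ ?_⟩
  · have h3 := congrArg (P.B x) h0
    simp only [map_add, map_smul, hxy, smul_eq_mul, zero_add, map_zero, mul_eq_zero] at h3
    rw [h3.resolve_right h1] at h0
    exact hy0 (by simpa using h0)
  · simp only [map_add, map_smul, LinearMap.add_apply, B_smul_left, smul_eq_mul, hxy,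
      P.eq_zero_symm hxy]
    field_simp at ha'
    linear_combination ha'

theorem finrank_eq_of_card {r : ℕ} (hcard : Fintype.card F = Nat.card F₀ ^ r) :
    finrank F₀ F = r := by
  have h1 : Nat.card F = Nat.card F₀ ^ finrank F₀ F := Module.natCard_eq_pow_finrank
  rw [Nat.card_eq_fintype_card, hcard] at h1
  have h2 : 1 < Nat.card F₀ := Finite.one_lt_card
  exact (Nat.pow_right_injective h2 h1).symm

end Iso

section Concrete

open scoped Matrix MatrixGroups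

variable {F : Type*} [Field F] [Fintype F]

theorem formRat {ι : Type} [Fintype ι] [DecidableEq ι] {f : (ι → F) → (ι → F) → F}
    {F₀ : Subfield F} {ζ : F} {A : GL ι F} (hA : Geo.IsFormRationalStructure f F₀ ζ A)
    {x y : ι → F} (hx : Rat (colBasis A) F₀ x) (hy : Rat (colBasis A) F₀ y) : ζ * f x y ∈ F₀ := by
  obtain ⟨u, hu, rfl⟩ := (rat_colBasis_iff' A F₀ x).1 hx
  obtain ⟨v, hv, rfl⟩ := (rat_colBasis_iff' A F₀ y).1 hy
  exact hA u v hu hv

/-- Subfield subgroups of `Sp_2m`, `m ≥ 3`. -/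
theorem isMaximalIn_subfield_Sp {m : ℕ} (hm : 3 ≤ m) (F₀ : Subfield F) {r : ℕ} (hr : r.Prime)
    (hcard : Fintype.card F = Nat.card F₀ ^ r) (A : GL (Fin m ⊕ Fin m) F) {ζ : F} (hζ : ζ ≠ 0)
    (hA : Geo.IsFormRationalStructure (sympForm m F) F₀ ζ A) :
    Geo.IsMaximalIn (spGL m F) (Geo.subfieldSubgroup F₀ A ⊓ spGL m F) := by
  let P := scale (spP m F) ζ 1 hζ (by simp) (by simp) (by simp)
  have hΛ : ∀ l, l ∈ P.Λ := fun _ => trivial
  have h : RatPQ P (colBasis A) F₀ := ⟨scale_nd (spP_nd m), fun a ha => ha,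
    fun x y hx hy => formRat hA hx hy, fun x _ => ⟨0, F₀.zero_mem, hΛ _⟩⟩
  have hk : RIso P (colBasis A) F₀ 1 := riso_one fun _ _ => hΛ _
  have hn : Fintype.card (Fin m ⊕ Fin m) = m + m := by simp
  rw [subfieldSubgroup_eq, spGL_eq, ← pull_inf, ← scale_EG (ζ := ζ) (δ := 1) (hζ := hζ)
    (hδ := by simp) (hσδ := by simp) (hσζ := by simp)]
  refine isMaximalIn_pull (h.isMaximalIn_of_level hk (by omega) (by omega) hr hcard
    (fun l _ => ?_) fun M hM hMI hI =>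
      h.le_ratNorm_of_transv hk (by omega) F₀.one_mem (hΛ _) one_ne_zero hM hMI hI)
  have hε : P.ε = -1 := by change (-1 : F) * 1 = -1; simp
  by_cases h2 : (2 : F) = 0
  · obtain ⟨t, ht⟩ := exists_sq_eq_of_two_eq_zero h2 l
    exact ⟨0, t, 1, F₀.one_mem, hΛ _, by simp [← ht, sq]⟩
  · exact ⟨l / 2, 0, 0, F₀.zero_mem, hΛ _, by rw [hε]; simp; field_simp; ring⟩

/-- Subfield subgroups of `Ω(Q)`, dimension at least seven. -/
theorem isMaximalIn_subfield_Omega {ι : Type} [Fintype ι] [DecidableEq ι] (hn : 7 ≤ Fintype.card ι)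
    {Q : QuadraticForm F (ι → F)} (hQ : (QuadraticMap.polarBilin Q).SeparatingLeft)
    (F₀ : Subfield F) {r : ℕ} (hr : r.Prime) (hcard : Fintype.card F = Nat.card F₀ ^ r)
    (A : GL ι F) {ζ : F} (hζ : ζ ≠ 0)
    (hA : Geo.IsQuadFormRationalStructure (fun v => ζ * Q v) F₀ A) :
    Geo.IsMaximalIn (Geo.omegaGL Q) (Geo.subfieldSubgroup F₀ A ⊓ Geo.omegaGL Q) := by
  let P := scale (PQ.ofQuad Q) ζ 1 hζ (by simp) (by simp) (by simp)
  have hq : ∀ x, Rat (colBasis A) F₀ x → ζ * Q x ∈ F₀ := fun x hx => by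
    obtain ⟨u, hu, rfl⟩ := (rat_colBasis_iff' A F₀ x).1 hx
    exact hA u hu
  have hΛ : ∀ l, l ∈ P.Λ ↔ l = 0 := fun l => by
    change ζ⁻¹ * l = 0 ↔ _
    simp [hζ]
  have h : RatPQ P (colBasis A) F₀ := ⟨scale_nd hQ, fun a ha => ha, fun x y hx hy => by
    have := F₀.sub_mem (F₀.sub_mem (hq _ (hx.add hy)) (hq _ hx)) (hq _ hy)
    convert this using 1
    change ζ * QuadraticMap.polar Q x y = _
    rw [QuadraticMap.polar]; ring, fun x hx => ⟨ζ * Q x, hq x hx, (hΛ _).2 (sub_self _)⟩⟩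
  obtain ⟨f, hf⟩ := exists_proj_one F₀
  have hk : RIso P (colBasis A) F₀ 3 :=
    riso_three (f.compQuadraticMap ((ζ • Q).restrictScalars (S := F₀))) fun x hx h0 => by
      have h1 : (f (ζ * Q x) : F) = 0 := congrArg Subtype.val h0
      rw [proj_of_mem f (hq x hx), hf] at h1
      exact (hΛ _).2 (show ζ * Q x = 0 by simpa only [OneMemClass.coe_one, mul_one] using h1)
  rw [subfieldSubgroup_eq, omegaGL_eq hQ (by omega), ← pull_inf, ← scale_EG (ζ := ζ) (δ := 1)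
    (hζ := hζ) (hδ := by simp) (hσδ := by simp) (hσζ := by simp)]
  exact isMaximalIn_pull (h.isMaximalIn_of_level hk (by omega) (by omega) hr hcard
    (fun l hl => ⟨0, 0, 0, F₀.zero_mem, P.Λ.zero_mem, by simp [(hΛ l).1 hl]⟩) fun M hM hMI hI =>
      h.le_ratNorm_of_orth (by change (1 : F) * 1 = 1; simp) hk (by omega) hM hMI hI)

section Unitary

open H11.U

variable {n q : ℕ} [IsSq F q]

theorem uP_ε : (uP n F q).ε = 1 := rfl

theorem mem_uP_Λ {l : F} : l ∈ (uP n F q).Λ ↔ l + cj q l = 0 := Iff.rfl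

theorem uP_valid {x : Fin n → F} {c : F} :
    c - (uP n F q).q x ∈ (uP n F q).Λ ↔ c + cj q c = (uP n F q).B x x := by
  rw [mem_uP_Λ, (uP n F q).self, uP_ε, map_sub]
  constructor <;> intro h <;> linear_combination h

theorem uP_iso (x : Fin n → F) (h : (uP n F q).B x x = 0) : (uP n F q).q x ∈ (uP n F q).Λ :=
  uP_q_mem.2 h

theorem exists_sub_cj {l : F} (hl : l + cj q l = 0) : ∃ a : F, l = a - cj q a := by
  obtain ⟨c, hc⟩ := exists_trace_one (cj_ne_id (F := F) (q := q)) cj_cj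
  exact ⟨c * l, by rw [map_mul]; linear_combination (cj q c) * hl - l * hc⟩

theorem cj_mem (F₀ : Subfield F) {a : F} (ha : a ∈ F₀) : cj q a ∈ F₀ := F₀.pow_mem ha q

theorem cj_eq_of_index_two {F₀ : Subfield F} (hcard : Fintype.card F = Nat.card F₀ ^ 2) {a : F}
    (ha : a ∈ F₀) : cj q a = a := by
  classical
  have := Fintype.ofFinite F₀
  have h1 : Fintype.card F₀ = q := by
    rw [IsSq.card_eq (F := F) (q := q), Nat.card_eq_fintype_card] at hcard
    exact (Nat.pow_left_injective two_ne_zero hcard).symm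
  have h2 := congrArg Subtype.val (FiniteField.pow_card (⟨a, ha⟩ : F₀))
  rw [h1] at h2
  exact h2

theorem exists_cj_ne_of_odd {F₀ : Subfield F} {r : ℕ} (hr : r.Prime) (hro : Odd r)
    (hcard : Fintype.card F = Nat.card F₀ ^ r) : ∃ a ∈ F₀, cj q a ≠ a := by
  by_contra hc
  push Not at hc
  have h1 : F₀ = fixedField F q := by
    refine le_antisymm hc fun s hs => ?_
    by_contra hs'
    obtain ⟨a, ha⟩ := exists_cj_ne F q
    exact ha (subring_eq_top hr hcard (fixedField F q).toSubring hc hs hs' a)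
  rw [h1, card_fixedField, IsSq.card_eq (F := F) (q := q)] at hcard
  have h2 := Nat.pow_right_injective (two_le_q F q) hcard
  rw [← h2] at hro
  exact absurd hro (by decide)

/-- Subfield subgroups of odd prime index of `SU_n`, `n ≥ 6`. -/
theorem isMaximalIn_subfield_SU_odd (hn : 6 ≤ n) (F₀ : Subfield F) {r : ℕ} (hr : r.Prime)
    (hro : Odd r) (hcard : Fintype.card F = Nat.card F₀ ^ r) (A : GL (Fin n) F)
    (hA : Geo.IsFormRationalStructure (hermForm n F q) F₀ 1 A) :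
    Geo.IsMaximalIn (GU n F q ⊓ Geo.specialLinear (Fin n) F)
      (Geo.subfieldSubgroup F₀ A ⊓ (GU n F q ⊓ Geo.specialLinear (Fin n) F)) := by
  obtain ⟨a, ha, ha'⟩ := exists_cj_ne_of_odd (q := q) hr hro hcard
  let σ₀ : F₀ →+* F₀ := (cj q).restrict F₀ F₀ fun x hx => cj_mem F₀ hx
  have hσ₀ : σ₀ ≠ RingHom.id F₀ := fun h =>
    ha' (congrArg Subtype.val (congrArg (fun φ : F₀ →+* F₀ => φ ⟨a, ha⟩) h))
  have hσσ : ∀ x, σ₀ (σ₀ x) = x := fun x => Subtype.ext (cj_cj x.1)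
  obtain ⟨θ, hθ⟩ := exists_trace_one hσ₀ hσσ
  have hθ' : (θ : F) + cj q (θ : F) = 1 := congrArg Subtype.val hθ
  have hB : ∀ x y, Rat (colBasis A) F₀ x → Rat (colBasis A) F₀ y → (uP n F q).B x y ∈ F₀ :=
    fun x y hx hy => by rw [uP_B]; simpa using formRat hA hy hx
  have h : RatPQ (uP n F q) (colBasis A) F₀ := ⟨uP_nd, fun a ha => cj_mem F₀ ha, hB,
    fun x hx => ⟨θ * (uP n F q).B x x, F₀.mul_mem θ.2 (hB x x hx hx), uP_valid.2 (by
      rw [map_mul, uP_B, cj_form]; linear_combination (hermForm n F q x x) * hθ')⟩⟩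
  have hk : RIso (uP n F q) (colBasis A) F₀ 2 := riso_two h rfl uP_iso fun t ht ht' => by
    obtain ⟨x, hx⟩ := H28.exists_norm_eq hσ₀ hσσ (t := ⟨t, ht⟩) (Subtype.ext ht')
    exact ⟨x, x.2, congrArg Subtype.val hx⟩
  have hc : Fintype.card (Fin n) = n := Fintype.card_fin n
  rw [subfieldSubgroup_eq, SU_eq (by omega), ← pull_inf]
  exact isMaximalIn_pull (h.isMaximalIn_of_level hk (by omega) (by omega) hr hcard
    (fun l hl => by
      obtain ⟨c, hc⟩ := exists_sub_cj (mem_uP_Λ.1 hl)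
      exact ⟨c, 0, 0, F₀.zero_mem, (uP n F q).Λ.zero_mem, by simpa [uP_ε] using hc⟩)
    fun M hM hMI hI => h.le_ratNorm_of_transv hk (by omega) (c₀ := a - cj q a)
      (F₀.sub_mem ha (cj_mem F₀ ha)) (mem_uP_Λ.2 (by rw [map_sub, cj_cj]; ring))
      (sub_ne_zero.2 ha'.symm) hM hMI hI)

/-- Orthogonal subfield subgroups of `SU_n`, `n ≥ 6`, `q` odd. -/
theorem isMaximalIn_subfield_SU_orth (hn : 6 ≤ n) (hodd : Odd q) (F₀ : Subfield F)
    (hcard : Fintype.card F = Nat.card F₀ ^ 2) (A : GL (Fin n) F)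
    (hA : Geo.IsFormRationalStructure (hermForm n F q) F₀ 1 A) :
    Geo.IsMaximalIn (GU n F q ⊓ Geo.specialLinear (Fin n) F)
      (Geo.subfieldSubgroup F₀ A ⊓ (GU n F q ⊓ Geo.specialLinear (Fin n) F)) := by
  have h2 : (2 : F) ≠ 0 := two_ne_zero_of_odd (by rw [IsSq.card_eq (F := F) (q := q)]; exact hodd.pow)
  have hfix : ∀ a ∈ F₀, cj q a = a := fun a ha => cj_eq_of_index_two hcard ha
  have hB : ∀ x y, Rat (colBasis A) F₀ x → Rat (colBasis A) F₀ y → (uP n F q).B x y ∈ F₀ :=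
    fun x y hx hy => by rw [uP_B]; simpa using formRat hA hy hx
  have h : RatPQ (uP n F q) (colBasis A) F₀ := ⟨uP_nd, fun a ha => cj_mem F₀ ha, hB,
    fun x hx => by
      have h3 : (uP n F q).B x x / 2 ∈ F₀ := F₀.div_mem (hB x x hx hx) (by
        simp)
      exact ⟨_, h3, uP_valid.2 (by rw [hfix _ h3]; field_simp; ring)⟩⟩
  obtain ⟨f, hf⟩ := exists_proj_one F₀
  let B₀ : LinearMap.BilinForm F₀ (Fin n → F) := LinearMap.mk₂ F₀ (fun x y => f ((uP n F q).B x y))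
    (fun x y z => by simp) (fun c x y => by
      rw [← map_smul]
      congr 1
      exact (B_smul_left (P := uP n F q) (c : F) x y).trans (by rw [hfix _ c.2]; rfl))
    (fun x y z => by simp) (fun c x y => by
      rw [← map_smul]
      congr 1
      exact map_smul ((uP n F q).B x) (c : F) y)
  have hk : RIso (uP n F q) (colBasis A) F₀ 3 :=
    riso_three (LinearMap.BilinMap.toQuadraticMap B₀) fun x hx h0 => by
      have h1 : (f ((uP n F q).B x x) : F) = 0 := congrArg Subtype.val h0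
      rw [proj_of_mem f (hB x x hx hx), hf] at h1
      exact uP_iso x (by simpa using h1)
  have hc : Fintype.card (Fin n) = n := Fintype.card_fin n
  rw [subfieldSubgroup_eq, SU_eq (by omega), ← pull_inf]
  exact isMaximalIn_pull (h.isMaximalIn_of_level hk (by omega) (by omega) Nat.prime_two hcard
    (fun l hl => by
      obtain ⟨c, hc⟩ := exists_sub_cj (mem_uP_Λ.1 hl)
      exact ⟨c, 0, 0, F₀.zero_mem, (uP n F q).Λ.zero_mem, by simpa [uP_ε] using hc⟩)
    fun M hM hMI hI => h.le_ratNorm_of_two hk (by omega) (by omega) (finrank_eq_of_card hcard)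
      uP_iso hM hMI hI)

/-- Symplectic subfield subgroups of `SU_n`, `n ≥ 5`. -/
theorem isMaximalIn_subfield_SU_symp (hn : 5 ≤ n) (F₀ : Subfield F)
    (hcard : Fintype.card F = Nat.card F₀ ^ 2) {ζ : F} (hζ0 : ζ ≠ 0) (hζ : ζ + ζ ^ q = 0)
    (A : GL (Fin n) F) (hA : Geo.IsFormRationalStructure (hermForm n F q) F₀ ζ A)
    (halt : ∀ u : Fin n → F, (∀ i, u i ∈ F₀) →
      hermForm n F q ((A : Matrix (Fin n) (Fin n) F) *ᵥ u) ((A : Matrix (Fin n) (Fin n) F) *ᵥ u) = 0) :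
    Geo.IsMaximalIn (GU n F q ⊓ Geo.specialLinear (Fin n) F)
      (Geo.subfieldSubgroup F₀ A ⊓ (GU n F q ⊓ Geo.specialLinear (Fin n) F)) := by
  have hσζ : cj q ζ = -1 * ζ := by rw [cj_apply]; linear_combination hζ
  let P := scale (uP n F q) ζ (-1) hζ0 (by simp) (by simp) hσζ
  have hs : ∀ x, Rat (colBasis A) F₀ x → P.q x ∈ P.Λ := fun x hx => by
    obtain ⟨u, hu, rfl⟩ := (rat_colBasis_iff' A F₀ x).1 hx
    exact scale_sing.2 (uP_iso _ (halt u hu))
  have h : RatPQ P (colBasis A) F₀ := ⟨scale_nd uP_nd, fun a ha => cj_mem F₀ ha,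
    fun x y hx hy => formRat hA hy hx, fun x hx => ⟨0, F₀.zero_mem, by simpa using hs x hx⟩⟩
  have hk : RIso P (colBasis A) F₀ 1 := riso_one hs
  have hc : Fintype.card (Fin n) = n := Fintype.card_fin n
  rw [subfieldSubgroup_eq, SU_eq (by omega), ← pull_inf, ← scale_EG (ζ := ζ) (δ := -1) (hζ := hζ0)
    (hδ := by simp) (hσδ := by simp) (hσζ := hσζ)]
  refine isMaximalIn_pull (h.isMaximalIn_of_level hk (by omega) (by omega) Nat.prime_two hcard
    (fun l hl => ?_) fun M hM hMI hI => h.le_ratNorm_of_transv hk (by omega) F₀.one_mem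
      (mem_scale_Λ.2 (mem_uP_Λ.2 ?_)) one_ne_zero hM hMI hI)
  · obtain ⟨c, hc⟩ := exists_sub_cj (mem_uP_Λ.1 (mem_scale_Λ.1 hl))
    refine ⟨ζ * c, 0, 0, F₀.zero_mem, P.Λ.zero_mem, ?_⟩
    rw [scale_ε, uP_ε, map_mul, hσζ]
    field_simp at hc
    linear_combination hc
  · rw [mul_one, map_inv₀, hσζ]; field_simp; ring

end Unitary

end Concrete

end H11.Sub
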